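import Cfsg.Agent.Lib.K3.Def
import Cfsg.Agent.Lib.PS4.Imp

/-! S4202: minimal degree of a multiply transitive group with an imprimitive stabilizer. -/

set_option autoImplicit false

namespace Cfsg.Lib.K3

open Equiv Finset Cfsg.Lib.SNL Cfsg.Lib.KC
open scoped Pointwise

variable {α : Type*} [Fintype α] [DecidableEq α] {M : Subgroup (Perm α)} {Δ B : Finset α} {t : ℕ}

/-- `Δ = insert a Γ`. If `g` fixes fewer than `t - 1` points the claim is clear; else conjugate `g` into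
`L = M ⊓ Fx Γ` (`MT.exists_map`). `L` acts on `X = ↥Γᶜ` (`N = n - t + 1` points) and `PS4.Blk L a B` holds. Let `F` be the
set of the `s` fixed points of `g` in `X`, `g x = y ≠ x`. `Blk.hyp.dist F x y`: either `Ter c x y` for all `c ∈ F`, and
then `s ≤ #B - 1` (`Blk.card_pair`), or `s + 3 - #B ≤ #Fᶜ = N - s = #g.support`. Note `2 #B ≤ n - t`
(`Blk.two_mul`). -/
theorem blk_mind (hM : MT M (t + 1)) (hΔ : #Δ = t) (ht : 1 ≤ t) (hB : B ⊆ Δᶜ) (h2 : 2 ≤ #B) (hne : B ≠ Δᶜ)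
    (hb : ∀ g ∈ M ⊓ Fx Δ, g • B = B ∨ Disjoint (g • B) B) {g : Perm α} (hg : g ∈ M) (h1 : g ≠ 1) :
    Fintype.card α - t + 4 ≤ 2 * #g.support + #B := by
  classical
  obtain ⟨t, rfl⟩ := Nat.exists_eq_add_of_le' ht
  obtain ⟨a, Γ, ha, rfl, hΓ⟩ := card_eq_succ.1 hΔ
  have cB := card_le_card hB
  rw [card_compl, hΔ] at cB
  rcases lt_or_ge #g.supportᶜ t with l | l
  · rw [card_compl] at l
    omega
  obtain ⟨Γ', s1, s2⟩ := exists_subset_card_eq l
  obtain ⟨k, hk, e⟩ := (hM.mono (by omega : t ≤ t + 1 + 1)).exists_map (fun i => (Γ'.equivFinOfCardEq s2).symm i)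
    (fun i => (Γ.equivFinOfCardEq hΓ).symm i) (Subtype.val_injective.comp (Equiv.injective _))
    (Subtype.val_injective.comp (Equiv.injective _))
  have hg' : k * g * k⁻¹ ∈ M ⊓ Fx Γ := ⟨M.mul_mem (M.mul_mem hk hg) (M.inv_mem hk), fun x hx => by
    obtain ⟨i, hi⟩ := (Γ.equivFinOfCardEq hΓ).symm.surjective ⟨x, hx⟩
    have := e i
    simp only [hi] at this
    rw [← this, Perm.mul_apply, Perm.mul_apply, Perm.inv_def, symm_apply_apply,
      Perm.notMem_support.1 (mem_compl.1 (s1 (Subtype.prop _)))]⟩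
  have h1' : k * g * k⁻¹ ≠ 1 := fun e => h1 (by rwa [mul_inv_eq_one, mul_eq_left] at e)
  rw [← Perm.card_support_conj (σ := k)]
  generalize k * g * k⁻¹ = g at hg' h1'
  clear * - hM hB h2 hne hb ha hΓ hΔ cB hg' h1'
  have hi : ∀ k ∈ M ⊓ Fx Γ, ∀ x ∈ Γᶜ, k x ∈ Γᶜ := fun k hk x hx => mem_compl.2 fun c =>
    mem_compl.1 hx (k.injective (hk.2 _ c) ▸ c)
  letI : MulAction ↥(M ⊓ Fx Γ) ↥Γᶜ :=
    { smul k x := ⟨k.1 x, hi _ k.2 _ x.2⟩, one_smul _ := rfl, mul_smul _ _ _ := rfl }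
  have sub : ∀ x ∈ (insert a Γ)ᶜ, x ∈ Γᶜ := fun x hx => compl_subset_compl.2 (subset_insert _ _) hx
  have c1 : #(B.subtype (· ∈ Γᶜ)) = #B := by rw [card_subtype, filter_true_of_mem fun x hx => sub x (hB hx)]
  have K : PS4.Blk ↥(M ⊓ Fx Γ) (⟨a, mem_compl.2 ha⟩ : ↥Γᶜ) (B.subtype (· ∈ Γᶜ)) := by
    refine ⟨fun x y x' y' n n' => ?_, fun c => mem_compl.1 (hB (mem_subtype.1 c)) (mem_insert_self _ _), c1 ▸ h2, ?_,
      fun k e x hx hx' y hy => ?_⟩
    · obtain ⟨k, hk, e⟩ := hM Γ (by omega) x x.2 x' x'.2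
      obtain ⟨k', hk', e'⟩ := hM (insert x'.1 Γ) (by rw [card_insert_of_notMem (mem_compl.1 x'.2)]; omega) (k y)
        (mem_compl.2 fun c => (mem_insert.1 c).elim (fun c => n (Subtype.ext (k.injective (e.trans c.symm))))
          (mem_compl.1 (hi k hk y y.2))) y'
        (mem_compl.2 fun c => (mem_insert.1 c).elim (fun c => n' (Subtype.ext c.symm)) (mem_compl.1 y'.2))
      exact ⟨⟨k' * k, mul_mem ⟨hk'.1, fun z hz => hk'.2 z (mem_insert_of_mem hz)⟩ hk⟩,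
        Subtype.ext ((congrArg k' e).trans (hk'.2 _ (mem_insert_self _ _))), Subtype.ext e'⟩
    · obtain ⟨c, c1, c2⟩ := exists_of_ssubset (ssubset_of_ne_of_subset hne hB)
      exact ⟨⟨c, sub c c1⟩, fun e => mem_compl.1 c1 (mem_insert.2 (.inl (congrArg Subtype.val e))),
        fun e => c2 (mem_subtype.1 e)⟩
    · rcases hb k.1 ⟨k.2.1, fun z hz => (mem_insert.1 hz).elim (fun c => c ▸ congrArg Subtype.val e) (k.2.2 z)⟩ with c | c
      · exact mem_subtype.2 (c.le (smul_mem_smul_finset (mem_subtype.1 hy)))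
      · exact (disjoint_left.1 c (smul_mem_smul_finset (mem_subtype.1 hx)) (mem_subtype.1 hx')).elim
  obtain ⟨x, hx⟩ := nonempty_iff_ne_empty.2 fun e => h1' (Perm.support_eq_empty_iff.1 e)
  have sp : ∀ z ∈ g.support, z ∈ Γᶜ := fun z hz => mem_compl.2 fun c => Perm.mem_support.1 hz (hg'.2 z c)
  have c2 : #(g.support.subtype (· ∈ Γᶜ)) = #g.support := by rw [card_subtype, filter_true_of_mem sp]
  have c3 := card_add_card_compl (g.support.subtype (· ∈ Γᶜ))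
  rw [c2, Fintype.card_coe, card_compl Γ, hΓ] at c3
  have n : (⟨x, sp x hx⟩ : ↥Γᶜ) ≠ ⟨g x, hi g hg' x (sp x hx)⟩ := fun e =>
    Perm.mem_support.1 hx (congrArg Subtype.val e).symm
  by_cases A : ∀ c ∈ (g.support.subtype (· ∈ Γᶜ))ᶜ, PS4.Ter ↥(M ⊓ Fx Γ) (⟨a, mem_compl.2 ha⟩ : ↥Γᶜ)
      (B.subtype (· ∈ Γᶜ)) c ⟨x, sp x hx⟩ ⟨g x, hi g hg' x (sp x hx)⟩
  · have := (card_le_card fun c hc => mem_filter.2 ⟨mem_univ _, A c hc⟩).trans_eq (K.card_pair n)
    omega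
  · have := (le_max_right _ _).trans ((K.hyp.dist (g.support.subtype (· ∈ Γᶜ))ᶜ _ _ n ⟨⟨g, hg'⟩, fun z hz => Subtype.ext
      (Perm.notMem_support.1 fun c => mem_compl.1 hz (mem_subtype.2 c)), rfl⟩ A).trans (card_filter_le _ _))
    rw [compl_compl] at this
    omega

end Cfsg.Lib.K3
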