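import Cfsg.Agent.Lib.K3.Num

/-! S4202: arithmetic for block systems. -/

set_option autoImplicit false

namespace Cfsg.Lib.K3

variable {a b : ℕ}

theorem h_eq {n v : ℕ} (hn : 5 ≤ n) (h1 : 4 * v ^ 2 ≤ 3 ^ n) (h2 : 3 ^ n < 4 * (v + 1) ^ 2) : h n = v := by
  refine le_antisymm ?_ ((le_h hn).2 h1)
  by_contra c
  have := (le_h hn).1 (Nat.succ_le_of_lt (not_le.1 c))
  exact absurd this (not_le.2 h2)

theorem h_vals : h 1 = 1 ∧ h 2 = 2 ∧ h 3 = 3 ∧ h 4 = 5 ∧ h 5 = 7 ∧ h 6 = 13 ∧ h 7 = 23 ∧ h 8 = 40 ∧ h 9 = 70 ∧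
    h 10 = 121 ∧ h 12 = 364 :=
  ⟨rfl, rfl, rfl, rfl, h_eq (by norm_num) (by norm_num) (by norm_num), h_eq (by norm_num) (by norm_num) (by norm_num),
    h_eq (by norm_num) (by norm_num) (by norm_num), h_eq (by norm_num) (by norm_num) (by norm_num),
    h_eq (by norm_num) (by norm_num) (by norm_num), h_eq (by norm_num) (by norm_num) (by norm_num),
    h_eq (by norm_num) (by norm_num) (by norm_num)⟩

theorem h_pos (n : ℕ) : 1 ≤ h n := by
  rcases le_or_gt 5 n with c | c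
  · rw [le_h c]
    exact le_trans (by norm_num) (Nat.pow_le_pow_right (by norm_num) c)
  · interval_cases n <;> decide

theorem h_four {n : ℕ} (hn : 4 ≤ n) : 81 * h n ^ 2 ≤ 25 * 3 ^ n := by
  rcases le_or_gt 5 n with c | c
  · have := h_five c; omega
  · obtain rfl : n = 4 := by omega
    decide

theorem nb1 (c : ℕ) : 3 ^ (c + 1) * (c + 2) ^ 2 ≤ 35 * 4 ^ c := by
  rcases le_or_gt 5 c with e | e
  · induction c, e using Nat.le_induction with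
    | base => norm_num
    | succ c e ih =>
      have : 3 * (c + 1 + 2) ^ 2 ≤ 4 * (c + 2) ^ 2 := by nlinarith
      calc 3 ^ (c + 1 + 1) * (c + 1 + 2) ^ 2 = 3 ^ (c + 1) * (3 * (c + 1 + 2) ^ 2) := by ring
        _ ≤ 3 ^ (c + 1) * (4 * (c + 2) ^ 2) := by gcongr
        _ = 4 * (3 ^ (c + 1) * (c + 2) ^ 2) := by ring
        _ ≤ 4 * (35 * 4 ^ c) := by gcongr
        _ = _ := by ring
  · interval_cases c <;> norm_num

/-- `C n² x^n ≤ D y^n` propagates upwards once `x (n + 1)² ≤ y n²` -/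
theorem nb_ind {C D x y m n : ℕ} (h0 : C * m ^ 2 * x ^ m ≤ D * y ^ m) (hm : 1 ≤ m) (h1 : x * (m + 1) ^ 2 ≤ y * m ^ 2)
    (hn : m ≤ n) : C * n ^ 2 * x ^ n ≤ D * y ^ n := by
  induction n, hn using Nat.le_induction with
  | base => exact h0
  | succ n e ih =>
    have e1 : (n + 1) * m ≤ (m + 1) * n := by nlinarith
    have e2 : x * (n + 1) ^ 2 ≤ y * n ^ 2 := by
      refine Nat.le_of_mul_le_mul_right (c := m ^ 2) ?_ (by positivity)
      calc x * (n + 1) ^ 2 * m ^ 2 = x * ((n + 1) * m) ^ 2 := by ring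
        _ ≤ x * ((m + 1) * n) ^ 2 := by gcongr
        _ = x * (m + 1) ^ 2 * n ^ 2 := by ring
        _ ≤ y * m ^ 2 * n ^ 2 := by gcongr
        _ = _ := by ring
    calc C * (n + 1) ^ 2 * x ^ (n + 1) = C * x ^ n * (x * (n + 1) ^ 2) := by ring
      _ ≤ C * x ^ n * (y * n ^ 2) := by gcongr
      _ = y * (C * n ^ 2 * x ^ n) := by ring
      _ ≤ y * (D * y ^ n) := by gcongr
      _ = _ := by ring

theorem nb_mu {μ k N : ℕ} (hk : 1 ≤ k) (hμ : μ ≤ N) : μ + k * (N - μ) ≤ k * N := by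
  obtain ⟨u, rfl⟩ := Nat.exists_eq_add_of_le hμ
  rw [Nat.add_sub_cancel_left]
  nlinarith

theorem numB_big (ha : 5 ≤ a) (c : ℕ) :
    25 * (h (c + 1) * h (a - 1) * h a ^ c * (a * (c + 2))) ^ 2 ≤ 16 * 3 ^ (a * (c + 2) - 1) := by
  obtain ⟨u, rfl⟩ : ∃ u, a = u + 1 := ⟨a - 1, by omega⟩
  have e1 := h_sq (n := c + 1) (by omega)
  have e2 := h_four (n := u) (by omega)
  have e3 := Nat.pow_le_pow_left (h_five ha) c
  have e4 := nb1 c
  have e5 : 121 * (u + 1) ^ 2 * 1 ^ (u + 1) ≤ 16 * 3 ^ (u + 1) :=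
    nb_ind (m := 5) (by norm_num) (by norm_num) (by norm_num) ha
  rw [one_pow, mul_one] at e5
  have e6 : (u + 1) * (c + 2) - 1 = u + (u + 1) * c + (u + 1) := by
    have : (u + 1) * (c + 2) = u + (u + 1) * c + (u + 1) + 1 := by ring
    omega
  rw [Nat.add_sub_cancel, e6]
  refine Nat.le_of_mul_le_mul_right (c := 9 * 81 * 4 ^ c) ?_ (by positivity)
  calc 25 * (h (c + 1) * h u * h (u + 1) ^ c * ((u + 1) * (c + 2))) ^ 2 * (9 * 81 * 4 ^ c)
      = 25 * (9 * h (c + 1) ^ 2) * (81 * h u ^ 2) * (4 * h (u + 1) ^ 2) ^ c * ((u + 1) * (c + 2)) ^ 2 := by ring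
    _ ≤ 25 * (4 * 3 ^ (c + 1)) * (25 * 3 ^ u) * (3 ^ (u + 1)) ^ c * ((u + 1) * (c + 2)) ^ 2 := by gcongr
    _ = 2500 * (3 ^ (c + 1) * (c + 2) ^ 2) * (u + 1) ^ 2 * (3 ^ u * (3 ^ (u + 1)) ^ c) := by ring
    _ ≤ 2500 * (35 * 4 ^ c) * (u + 1) ^ 2 * (3 ^ u * (3 ^ (u + 1)) ^ c) := by gcongr
    _ = 87500 * (u + 1) ^ 2 * (4 ^ c * (3 ^ u * (3 ^ (u + 1)) ^ c)) := by ring
    _ ≤ 729 * (16 * 3 ^ (u + 1)) * (4 ^ c * (3 ^ u * (3 ^ (u + 1)) ^ c)) := by gcongr ?_ * _; omega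
    _ = _ := by rw [← pow_mul]; ring

theorem numB_two (hb : 12 ≤ b) : 25 * (h (b - 1) * 2 ^ (b - 1 - b / 2) * (2 * b)) ^ 2 ≤ 16 * 3 ^ (2 * b - 1) := by
  have e1 := h_five (n := b - 1) (by omega)
  have e2 : 25 * b ^ 2 * 2 ^ b ≤ 32 * 3 ^ b := nb_ind (m := 12) (by norm_num) (by norm_num) (by norm_num) hb
  have e3 : 2 * (2 ^ (b - 1 - b / 2)) ^ 2 ≤ 2 ^ b := by
    rw [← pow_mul, ← pow_succ']
    exact Nat.pow_le_pow_right (by norm_num) (by omega)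
  have e4 : 3 ^ (2 * b - 1) = 3 ^ (b - 1) * 3 ^ b := by rw [← pow_add]; congr 1; omega
  rw [e4]
  refine Nat.le_of_mul_le_mul_left (c := 2) ?_ two_pos
  calc 2 * (25 * (h (b - 1) * 2 ^ (b - 1 - b / 2) * (2 * b)) ^ 2)
      = 4 * h (b - 1) ^ 2 * (25 * b ^ 2 * (2 * (2 ^ (b - 1 - b / 2)) ^ 2)) := by ring
    _ ≤ 3 ^ (b - 1) * (25 * b ^ 2 * 2 ^ b) := by gcongr
    _ ≤ 3 ^ (b - 1) * (32 * 3 ^ b) := by gcongr
    _ = _ := by ring

theorem numB_three (hb : 5 ≤ b) :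
    25 * (h (b - 1) * 2 * 3 ^ (b - 1 - b / 2) * (3 * b)) ^ 2 ≤ 16 * 3 ^ (3 * b - 1) := by
  have e1 := h_sq (n := b - 1) (by omega)
  have e2 : 25 * b ^ 2 * 1 ^ b ≤ 3 * 3 ^ b := nb_ind (m := 5) (by norm_num) (by norm_num) (by norm_num) hb
  rw [one_pow, mul_one] at e2
  have e3 : (3 ^ (b - 1 - b / 2)) ^ 2 ≤ 3 ^ (b - 1) := by
    rw [← pow_mul]
    exact Nat.pow_le_pow_right (by norm_num) (by omega)
  have e4 : 3 ^ (3 * b - 1) = 3 ^ (b - 1) * (3 * 3 ^ b) * 3 ^ (b - 1) := by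
    rw [← pow_succ', ← pow_add, ← pow_add]; congr 1; omega
  rw [e4]
  calc 25 * (h (b - 1) * 2 * 3 ^ (b - 1 - b / 2) * (3 * b)) ^ 2
      = 4 * (9 * h (b - 1) ^ 2) * (25 * b ^ 2) * (3 ^ (b - 1 - b / 2)) ^ 2 := by ring
    _ ≤ 4 * (4 * 3 ^ (b - 1)) * (3 * 3 ^ b) * 3 ^ (b - 1) := by gcongr
    _ = _ := by ring

theorem numB_four (hb : 5 ≤ b) :
    25 * (h (b - 1) * 3 * 5 ^ (b - 1 - (b - 1) / 2) * (4 * b)) ^ 2 ≤ 16 * 3 ^ (4 * b - 1) := by
  have e1 := h_sq (n := b - 1) (by omega)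
  have e2 : 100 * b ^ 2 * 5 ^ b ≤ 1 * 27 ^ b := nb_ind (m := 5) (by norm_num) (by norm_num) (by norm_num) hb
  have e3 : (5 ^ (b - 1 - (b - 1) / 2)) ^ 2 ≤ 5 ^ b := by
    rw [← pow_mul]
    exact Nat.pow_le_pow_right (by norm_num) (by omega)
  have e4 : 3 ^ (4 * b - 1) = 3 ^ (b - 1) * (1 * 27 ^ b) := by
    rw [one_mul, show (27 : ℕ) = 3 ^ 3 by norm_num, ← pow_mul, ← pow_add]; congr 1; omega
  rw [e4]
  calc 25 * (h (b - 1) * 3 * 5 ^ (b - 1 - (b - 1) / 2) * (4 * b)) ^ 2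
      = 4 * (9 * h (b - 1) ^ 2) * (100 * b ^ 2 * (5 ^ (b - 1 - (b - 1) / 2)) ^ 2) := by ring
    _ ≤ 4 * (4 * 3 ^ (b - 1)) * (100 * b ^ 2 * 5 ^ b) := by gcongr
    _ ≤ 4 * (4 * 3 ^ (b - 1)) * (1 * 27 ^ b) := by gcongr
    _ = _ := by ring

/-- Checked numerically for `a b ≤ 300`. `5 ≤ a`: `d = 1`, `μ = 0` (`h_sq` for `b - 1`, `a - 1`, `h_five` for `a ≥ 6`;
`h 4 = 5`, `h 5 = 7` for `a = 5`). `a ≤ 4`: `μ = max 4 ((a b + 5 - a) / 2)`, `d = max 1 ((μ - 1) / a)`, that is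
`d = b / 2` for `a = 2, 3` and `d = max 1 ((b - 1) / 2)` for `a = 4`; small `b` (say `b ≤ 12`) by `decide`, large `b` by
`h_five`, `μ + k (a b - μ) ≤ k a b` and induction `b ↦ b + 2`. -/
theorem numB (ha : 2 ≤ a) (hb : 2 ≤ b) : ∃ d μ, 1 ≤ d ∧ d ≤ b - 1 ∧ (d = 1 ∨ d * a < μ) ∧
    (μ ≤ 4 ∨ 2 * μ + a ≤ a * b + 5) ∧
    25 * (μ + h (b - 1) * h (a - 1) * h a ^ (b - 1 - d) * (a * b - μ)) ^ 2 ≤ 16 * 3 ^ (a * b - 1) := by
  obtain ⟨v1, v2, v3, v4, v5, v6, v7, v8, v9, v10, -⟩ := h_vals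
  have hp := h_pos (b - 1)
  rcases le_or_gt 5 a with c | c
  · obtain ⟨u, rfl⟩ : ∃ u, b = u + 2 := ⟨b - 2, by omega⟩
    refine ⟨1, 0, le_rfl, by omega, Or.inl rfl, Or.inl (by omega), ?_⟩
    simpa using numB_big c u
  · interval_cases a
    · refine ⟨b / 2, max 4 (b + 1), by omega, by omega, by omega, by omega, ?_⟩
      rw [show 2 - 1 = 1 from rfl, v1, v2, mul_one]
      rcases le_or_gt 12 b with e | e
      · refine le_trans ?_ (numB_two e)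
        gcongr
        exact nb_mu (Nat.mul_pos hp (by positivity)) (by omega)
      · interval_cases b <;> norm_num [v1, v2, v3, v4, v5, v6, v7, v8, v9, v10]
    · refine ⟨b / 2, (3 * b + 2) / 2, by omega, by omega, by omega, by omega, ?_⟩
      rw [show 3 - 1 = 2 from rfl, v2, v3]
      rcases le_or_gt 5 b with e | e
      · refine le_trans ?_ (numB_three e)
        gcongr
        exact nb_mu (Nat.mul_pos (by omega) (by positivity)) (by omega)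
      · interval_cases b <;> norm_num [v1, v2, v3]
    · rw [show 4 - 1 = 3 from rfl, v3, v4]
      rcases le_or_gt 5 b with e | e
      · refine ⟨(b - 1) / 2, 2 * b, by omega, by omega, by omega, by omega, le_trans ?_ (numB_four e)⟩
        gcongr
        exact nb_mu (Nat.mul_pos (by omega) (by positivity)) (by omega)
      · refine ⟨1, 2 * b, by omega, by omega, by omega, by omega, ?_⟩
        interval_cases b <;> norm_num [v1, v2, v3]

theorem le_h_even {k : ℕ} (hb : 3 ≤ b) : k ≤ h (2 * b) ↔ 2 * k ≤ 3 ^ b := by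
  rw [le_h (by omega), show 4 * k ^ 2 = (2 * k) ^ 2 by ring, mul_comm 2 b, pow_mul,
    Nat.pow_le_pow_iff_left (by norm_num)]

theorem numI_two (hb : 6 ≤ b) : 2 * (h b * 2 ^ (b / 2)) ≤ 3 ^ (b - 1) := by
  have e1 := h_five (n := b) (by omega)
  have e2 : (2 ^ (b / 2)) ^ 2 ≤ 2 ^ b := by
    rw [← pow_mul]
    exact Nat.pow_le_pow_right (by norm_num) (by omega)
  have e3 : ∀ n, 6 ≤ n → 9 * 2 ^ n ≤ 3 ^ n := by
    intro n hn
    induction n, hn using Nat.le_induction with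
    | base => norm_num
    | succ n _ ih => rw [pow_succ, pow_succ]; omega
  have e4 : 3 ^ b = 3 * 3 ^ (b - 1) := by rw [← pow_succ']; congr 1; omega
  rw [← Nat.pow_le_pow_iff_left (n := 2) (by norm_num)]
  refine Nat.le_of_mul_le_mul_left (c := 9) ?_ (by decide : 0 < 9)
  calc 9 * (2 * (h b * 2 ^ (b / 2))) ^ 2 = 4 * h b ^ 2 * (9 * (2 ^ (b / 2)) ^ 2) := by ring
    _ ≤ 3 ^ b * (9 * 2 ^ b) := by gcongr
    _ ≤ 3 ^ b * 3 ^ b := by gcongr; exact e3 b hb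
    _ = _ := by rw [e4]; ring

/-- First option for `5 ≤ a` (`4 h(b)² ≤ 4^b`), `a = 4 ≤ b`, `a = 3, 5 ≤ b`; third option for `a = 2, 3 ≤ b`
(`b ≥ 6`: `h (2 b) = 3^b / 2`, `2 h (2 b - 2) ≤ 3^(b-1)`, `h b · 2^(b/2) ≤ 6^(b/2) / 2`) and `(3,3), (3,4), (4,3)`. -/
theorem numI (ha : 2 ≤ a) (hb : 2 ≤ b) : h b * h a ^ b ≤ h (a * b) ∨ (b = 2 ∧ a ≤ 4) ∨
    (h a * h (a * b - a) + (h b - 2) * a.factorial ^ (b / 2) ≤ h (a * b) ∧
      h a ^ b + (h b - 1) * a.factorial ^ (b / 2) ≤ h (a * b)) := by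
  obtain ⟨v1, v2, v3, v4, v5, v6, v7, v8, v9, v10, v12⟩ := h_vals
  rcases le_or_gt 5 a with c | c
  · left
    have e1 : 4 * h b ^ 2 ≤ 4 ^ b := by
      rcases le_or_gt 5 b with e | e
      · exact (h_five e).trans (Nat.pow_le_pow_left (by norm_num) b)
      · interval_cases b <;> decide
    rw [le_h (by nlinarith), pow_mul]
    calc 4 * (h b * h a ^ b) ^ 2 = 4 * h b ^ 2 * (h a ^ 2) ^ b := by ring
      _ ≤ 4 ^ b * (h a ^ 2) ^ b := by gcongr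
      _ = (4 * h a ^ 2) ^ b := by ring
      _ ≤ _ := Nat.pow_le_pow_left (h_five c) b
  rcases hb.eq_or_lt with rfl | hb
  · exact Or.inr (Or.inl ⟨rfl, by omega⟩)
  interval_cases a
  · refine Or.inr (Or.inr ?_)
    rcases le_or_gt 6 b with e | e
    · have e1 := numI_two e
      have e2 : 2 * h (2 * (b - 1)) ≤ 3 ^ (b - 1) := (le_h_even (by omega)).1 le_rfl
      have e3 : 2 ^ b ≤ 3 ^ (b - 1) := by
        obtain ⟨u, rfl⟩ : ∃ u, b = u + 3 := ⟨b - 3, by omega⟩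
        have := Nat.pow_le_pow_left (show 2 ≤ 3 by norm_num) u
        rw [show u + 3 - 1 = u + 2 from rfl, pow_add, pow_add]
        omega
      have e4 : 3 ^ b = 3 * 3 ^ (b - 1) := by rw [← pow_succ']; congr 1; omega
      have e5 : (h b - 2) * 2 ^ (b / 2) ≤ h b * 2 ^ (b / 2) := by gcongr; omega
      have e6 : (h b - 1) * 2 ^ (b / 2) ≤ h b * 2 ^ (b / 2) := by gcongr; omega
      rw [le_h_even (by omega), le_h_even (by omega), show 2 * b - 2 = 2 * (b - 1) by omega, v2,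
        show Nat.factorial 2 = 2 from rfl]
      omega
    · interval_cases b <;> norm_num [v2, v3, v4, v5, v6, v8, v10]
  · rcases le_or_gt 5 b with e | e
    · left
      rw [le_h (by omega), v3]
      calc 4 * (h b * 3 ^ b) ^ 2 = 4 * h b ^ 2 * (3 ^ b) ^ 2 := by ring
        _ ≤ 3 ^ b * (3 ^ b) ^ 2 := by gcongr; exact h_five e
        _ = _ := by ring
    · refine Or.inr (Or.inr ?_)
      interval_cases b <;> norm_num [v3, v4, v6, v9, v12, Nat.factorial]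
  · rcases le_or_gt 5 b with e | e
    · left
      rw [le_h (by omega), v4]
      calc 4 * (h b * 5 ^ b) ^ 2 = 4 * h b ^ 2 * (5 * 5) ^ b := by rw [mul_pow 5 5]; ring
        _ ≤ 3 ^ b * (3 ^ 3) ^ b := by gcongr; exacts [h_five e, by norm_num]
        _ = _ := by rw [← pow_mul, ← pow_add]; congr 1; omega
    · interval_cases b
      · exact Or.inr (Or.inr (by norm_num [v3, v4, v8, v12, Nat.factorial]))
      · left
        rw [le_h (by omega), v4]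
        norm_num

end Cfsg.Lib.K3
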