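import Cfsg.Agent.Lib.K3.Def
import Cfsg.Agent.Lib.K3.Nub

/-! S4202: chains of non-Jordan sets, block stabilizers, intransitive groups. -/

set_option autoImplicit false

namespace Cfsg.Lib.K3

open Equiv Finset Cfsg.Lib.SNL Cfsg.Lib.KC
open scoped Pointwise

variable {α : Type*} [Fintype α] [DecidableEq α] {K M : Subgroup (Perm α)} {R : Finset α} {P : Finset (Finset α)}
  {p n μ a b d : ℕ} {y : α}

theorem chn_bot (hμ : MinD K μ) (hK : K ≤ Fx Rᶜ) (c : #R < μ) : K = ⊥ :=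
  eq_bot_iff.2 fun g hg => by_contra fun n => c.not_ge ((hμ g hg n).trans (card_le_card fun x hx =>
    by_contra fun e => Perm.mem_support.1 hx (hK hg x (mem_compl.2 e))))

/-- Strong induction on `#S`. `#S < μ`: the group is `⊥`. Else it is not transitive on `S`; let `X` be the smaller of
an orbit `O ⊂ S` (`cx_sub`, `cx_app`) and `S \ O`; `IH.res` on `X`, and `M ⊓ Fx Sᶜ ⊓ Fx X = M ⊓ Fx (S \ X)ᶜ`. -/
theorem chain (ih : IH p n) (hd : ¬ p ∣ Nat.card M) (hR : #R < n) (hμ : MinD M μ) (h2 : 2 ≤ μ)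
    (hJ : ∀ S ⊆ R, 2 ≤ #S → ¬ Tr (M ⊓ Fx Sᶜ) S) (γ : ℕ → ℕ) (h0 : ∀ s < μ, 1 ≤ γ s)
    (h1 : ∀ s j, μ ≤ s → s ≤ #R → 1 ≤ j → 2 * j ≤ s → h j * γ (s - j) ≤ γ s) :
    ∀ S ⊆ R, kc (M ⊓ Fx Sᶜ) ≤ γ #S := by
  intro S
  induction S using Finset.strongInduction with | _ S ih' =>
  intro hS
  by_cases c : #S < μ
  · rw [chn_bot (K := M ⊓ Fx Sᶜ) (fun g hg => hμ g hg.1) inf_le_right c, kc_bot]
    exact h0 _ c
  have hT := hJ S hS (by omega)
  simp only [Tr, not_forall] at hT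
  obtain ⟨x, hx, z, hz, hT⟩ := hT
  have sub : orb (M ⊓ Fx Sᶜ) x ⊆ S := cx_sub inf_le_right hx
  have key : ∀ X ⊆ S, 1 ≤ #X → 2 * #X ≤ #S → (∀ g ∈ M ⊓ Fx Sᶜ, ∀ u ∈ X, g u ∈ X) → kc (M ⊓ Fx Sᶜ) ≤ γ #S := by
    intro X hX x1 x2 hi
    have cS := card_le_card hS
    have e : M ⊓ Fx Sᶜ ⊓ Fx X = M ⊓ Fx (S \ X)ᶜ := by
      ext g
      simp only [Subgroup.mem_inf, mem_Fx, mem_compl, mem_sdiff, not_and, not_not, and_assoc]
      exact and_congr_right fun _ => ⟨fun k u hu => (em (u ∈ S)).elim (fun e => k.2 u (hu e)) (k.1 u),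
        fun k => ⟨fun u hu => k u fun e => absurd e hu, fun u hu => k u fun _ => hu⟩⟩
    have r := ih.res (nd_le hd inf_le_left) (show #X < n by omega) hi
    have r' := ih' (S \ X) (sdiff_ssubset hX (card_pos.1 x1)) (sdiff_subset.trans hS)
    rw [card_sdiff_of_subset hX] at r'
    rw [e] at r
    exact (r.trans (Nat.mul_le_mul_left _ r')).trans (h1 _ _ (by omega) cS x1 x2)
  have c1 : 0 < #(orb (M ⊓ Fx Sᶜ) x) := card_pos.2 ⟨x, cx_self _ x⟩
  have c2 : 0 < #(S \ orb (M ⊓ Fx Sᶜ) x) := card_pos.2 ⟨z, mem_sdiff.2 ⟨hz, fun e => hT (mem_orb.1 e)⟩⟩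
  have c3 := card_sdiff_of_subset sub
  by_cases c4 : 2 * #(orb (M ⊓ Fx Sᶜ) x) ≤ #S
  · exact key _ sub c1 c4 fun g hg u hu => cx_app hg hu
  · exact key _ sdiff_subset c2 (by omega) fun g hg u hu => mem_sdiff.2 ⟨cx_in hg.2 (mem_sdiff.1 hu).1,
      fun e => (mem_sdiff.1 hu).2 (by simpa using cx_app (inv_mem hg) e)⟩

/-- `chain` with `μ = 5`, `ga` (`mind5`, `ga_step`, `ga_fin`) if `9 ≤ card α`, else `μ = 4`, `gb` (`mind4`). -/
theorem primI (ih : IH p (Fintype.card α)) (hd : ¬ p ∣ Nat.card M) (hM : Pr M univ) (hA : ¬ alternatingGroup α ≤ M)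
    (h3 : 3 ≤ #R) (hR : #R < Fintype.card α) (hJ : ∀ S ⊆ R, 2 ≤ #S → ¬ Tr (M ⊓ Fx Sᶜ) S) :
    25 * (4 + kc (M ⊓ Fx Rᶜ) * (#R - 3)) ^ 2 ≤ 16 * 3 ^ #R := by
  by_cases c : 9 ≤ Fintype.card α
  · exact ga_fin h3 (chain ih hd hR (mind5 hM c hA) (by omega) hJ ga (fun s hs => by rw [ga, if_pos (by omega)])
      (fun s j a _ b c => ga_step a b c) R Subset.rfl)
  · refine gb_fin h3 (by omega) (chain ih hd hR (mind4 hM hA) (by omega) hJ gb (fun s hs => ?_)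
      (fun s j a e b c => gb_step a (by omega) b c) R Subset.rfl)
    interval_cases s <;> decide

/-- Let `y ∈ B₀ ∈ P`. `K ⊓ Fx {y}` fixes `B₀`: `IH.fam` on `P.erase B₀`, `IH.res` on `B₀.erase y`, `IH.prod` on
`P.erase B₀ \ D` for some `D ⊆ P.erase B₀` with `#D = d`. What is left has support in `⋃ D`, so is `⊥`
(`hJ` if `d = 1`, else `hμ`). -/
theorem cellB (ih : IH p n) (hd : ¬ p ∣ Nat.card K) (hP : Cells K R P) (hK : K ≤ Fx Rᶜ) (hR : #R < n)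
    (ha : ∀ B ∈ P, #B = a) (hb : #P = b) (h2 : 2 ≤ a) (hy : y ∈ R)
    (hJ : ∀ B ∈ P, ∀ g ∈ K, (∀ x ∉ B, g x = x) → g = 1) (hμ : MinD K μ) (d1 : 1 ≤ d) (d2 : d ≤ b - 1)
    (d3 : d = 1 ∨ d * a < μ) : kc (K ⊓ Fx {y}) ≤ h (b - 1) * h (a - 1) * h a ^ (b - 1 - d) := by
  obtain ⟨B₀, hB, yB⟩ := hP.cov y hy
  have hc := cell_card hP fun B hB => ha B hB ▸ h2
  have hs : ∀ B ∈ P, #B < n := fun B hB => (cell_sub hP hB).trans_lt hR
  have ce : #(P.erase B₀) = b - 1 := by rw [card_erase_of_mem hB, hb]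
  have f0 : ∀ g ∈ K ⊓ Fx {y}, g • B₀ = B₀ := fun g hg => hP.dis _ (hP.inv g hg.1 _ hB) _ hB y
    (mem_smul_finset.2 ⟨y, yB, hg.2 y (mem_singleton_self y)⟩) yB
  have d0 := nd_le hd (inf_le_left : K ⊓ Fx {y} ≤ K)
  obtain ⟨N, hN, hi, k1⟩ := ih.fam (E := P.erase B₀) d0 (by omega) fun g hg B hB' => mem_erase.2
    ⟨fun e => (mem_erase.1 hB').1 (smul_left_cancel g (e.trans (f0 g hg).symm)), hP.inv g hg.1 _ (mem_erase.1 hB').2⟩
  have k2 := ih.res (K := N) (B := B₀.erase y) (nd_le d0 hN) ((card_le_card (erase_subset _ _)).trans_lt (hs _ hB))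
    fun g hg x hx => mem_erase.2 ⟨fun e => (mem_erase.1 hx).1
      (g.injective (e.trans ((hN hg).2 y (mem_singleton_self y)).symm)),
      f0 g (hN hg) ▸ smul_mem_smul_finset (mem_erase.1 hx).2⟩
  obtain ⟨D, hD, cD⟩ := exists_subset_card_eq (s := P.erase B₀) (n := d) (by omega)
  have sP : P.erase B₀ \ D ⊆ P := sdiff_subset.trans (erase_subset _ _)
  obtain ⟨T, hT, ht, k3⟩ := ih.prod (K := N ⊓ Fx (B₀.erase y)) (E := P.erase B₀ \ D)
    (nd_le d0 (inf_le_left.trans hN)) (fun B hB => hs B (sP hB)) fun g hg B hB => hi g hg.1 B (mem_sdiff.1 hB).1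
  have fx : T ≤ Fx (D.biUnion id)ᶜ := fun g hg x hx => by
    by_cases xR : x ∈ R
    · obtain ⟨B, hB', xB⟩ := hP.cov x xR
      by_cases e : B = B₀
      · by_cases e' : x = y
        · exact e' ▸ (hN (hT hg).1).2 y (mem_singleton_self y)
        · exact (hT hg).2 x (mem_erase.2 ⟨e', e ▸ xB⟩)
      · exact ht g hg B (mem_sdiff.2 ⟨mem_erase.2 ⟨e, hB'⟩, fun m =>
          mem_compl.1 hx (mem_biUnion.2 ⟨B, m, xB⟩)⟩) x xB
    · exact hK (hN (hT hg).1).1 x (mem_compl.2 xR)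
  have hb' : T = ⊥ := by
    rcases d3 with rfl | d3
    · obtain ⟨B, rfl⟩ := card_eq_one.1 cD
      exact eq_bot_iff.2 fun g hg => hJ B (mem_of_mem_erase (hD (mem_singleton_self B))) g (hN (hT hg).1).1
        fun x hx => fx hg x (by simpa using hx)
    · refine chn_bot (fun g hg => hμ g (hN (hT hg).1).1) fx (card_biUnion_le.trans_lt ?_)
      rwa [sum_congr rfl (f := fun B => #(id B)) fun B hB => ha B (mem_of_mem_erase (hD hB)), sum_const, cD]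
  rw [hb', kc_bot, mul_one, prod_congr rfl fun B hB => congrArg h (ha B (sP hB)), prod_const,
    card_sdiff_of_subset hD, ce, cD] at k3
  rw [card_erase_of_mem yB, ha _ hB] at k2
  rw [ce] at k1
  rw [mul_assoc]
  exact k1.trans (Nat.mul_le_mul_left _ (k2.trans (Nat.mul_le_mul_left _ k3)))

/-- as `KC.intr`, with `h_mul` -/
theorem intr3 (ih : IH p (Fintype.card α)) (hd : ¬ p ∣ Nat.card M) (hT : ¬ Tr M univ) :
    kc M ≤ h (Fintype.card α) := by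
  simp only [Tr, mem_univ, forall_const, not_forall] at hT
  obtain ⟨x, y, hT⟩ := hT
  have h4 : 0 < #(orb M x) := card_pos.2 ⟨x, cx_self M x⟩
  have h5 : #(orb M x) < Fintype.card α := card_lt_univ_of_notMem (x := y) fun e => hT (mem_orb.1 e)
  have h1 := ih.res (B := orb M x) hd h5 fun g hg z hz => cx_app hg hz
  have h2 := ih.res (K := M ⊓ Fx (orb M x)) (B := (orb M x)ᶜ) (nd_le hd inf_le_left) (by rw [card_compl]; omega)
    fun g hg z hz => mem_compl.2 fun e => mem_compl.1 hz (by simpa using cx_app (M.inv_mem hg.1) e)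
  rw [fx_bot (M := M ⊓ Fx (orb M x)) (R := (orb M x)ᶜ) (by rw [compl_compl]; exact inf_le_right), kc_bot, mul_one,
    card_compl] at h2
  have h6 := h_mul h4 (show 1 ≤ Fintype.card α - #(orb M x) by omega)
  rw [Nat.add_sub_cancel' h5.le] at h6
  exact (h1.trans (Nat.mul_le_mul_left _ h2)).trans h6

end Cfsg.Lib.K3
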