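import Cfsg.Agent.Lib.K3.Def

/-! S4202: covers by conjugacy classes in an abstract finite group. -/

set_option autoImplicit false

namespace Cfsg.Lib.K3

open Equiv Finset Cfsg.Lib.SNL Cfsg.Lib.KC
open scoped Pointwise

variable {G Q : Type*} [Group G] [Finite G] [Group Q] [Finite Q] {H N S : Subgroup G} {c D : ℕ}

theorem cov_avoid (U : Subgroup G) {X : Set G} (hX : X ⊆ U) (A : Finset (ConjClasses U))
    (hA : ∀ x : U, x.1 ∈ X → ConjClasses.mk x ∉ A) : Cov U X (kc U - #A) := by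
  classical
  have := Fintype.ofFinite (ConjClasses U)
  refine ⟨Aᶜ.image fun k => (k.exists_rep.choose : G), card_image_le.trans (by
    rw [card_compl, kc, Nat.card_eq_fintype_card]), fun x hx => ?_⟩
  obtain ⟨k, hk⟩ := isConj_iff.1 (ConjClasses.mk_eq_mk_iff_isConj.1
    (ConjClasses.mk (⟨x, hX hx⟩ : U)).exists_rep.choose_spec.symm)
  exact ⟨k, k.2, mem_image.2 ⟨_, mem_compl.2 (hA ⟨x, hX hx⟩ hx), (congrArg Subtype.val hk).symm⟩⟩

/-- `cov_of_sum` and `sum_cent`, or representatives `Quotient.out` -/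
theorem cov_self (H : Subgroup G) : Cov H H (kc H) :=
  cov_avoid H subset_rfl ∅ fun _ _ => notMem_empty _

/-- `cov_of_sum` with `X = {z | z * y⁻¹ ∈ N}` (it has `card N` elements); exchange the two sums. -/
theorem cov_coset {y : G} (hy : ∀ x ∈ N, y * x * y⁻¹ ∈ N)
    (hc : ∀ z, z * y⁻¹ ∈ N → Nat.card ↥(N ⊓ Subgroup.centralizer {z}) ≤ c) : Cov N {z | z * y⁻¹ ∈ N} c := by
  classical
  have := Fintype.ofFinite N
  refine cov_of_sum (fun h hh z hz => ?_) ?_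
  · have := N.mul_mem (N.mul_mem hh hz) (hy _ (N.inv_mem hh))
    simpa [mul_assoc] using this
  have e : ∑ h : N, Nat.card {z : G // z ∈ {z | z * y⁻¹ ∈ N} ∧ h.1 * z = z * h.1} ≤
      ∑ n : N, Nat.card ↥(N ⊓ Subgroup.centralizer {n.1 * y}) := by
    rw [← Nat.card_sigma, ← Nat.card_sigma]
    refine Nat.card_le_card_of_injective (fun p => ⟨⟨p.2.1 * y⁻¹, p.2.2.1⟩, p.1.1, p.1.2,
      Subgroup.mem_centralizer_singleton_iff.2 (by simpa using p.2.2.2)⟩) ?_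
    rintro ⟨a, b, hb⟩ ⟨a', b', hb'⟩ e
    obtain rfl : b = b' := mul_right_cancel (congrArg (fun p => p.1.1) e)
    obtain rfl : a = a' := Subtype.ext (congrArg (fun p => p.2.1) e)
    rfl
  refine e.trans ?_
  refine (sum_le_card_nsmul _ _ c fun n _ => hc _ (by simp)).trans ?_
  rw [card_univ, smul_eq_mul, mul_comm, Nat.card_eq_fintype_card]

/-- The classes of `U` inside `X` miss the classes of `u` and `v`. -/
theorem cov_miss (U : Subgroup Q) {X : Set Q} (hX : X ⊆ U) (hi : ∀ g ∈ U, ∀ x ∈ X, g * x * g⁻¹ ∈ X) (h1 : 1 ∉ X) :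
    Cov U X (kc U - 1) ∧ ∀ v ∈ U, v ≠ 1 → v ∉ X → Cov U X (kc U - 2) := by
  classical
  have k : ∀ x v : U, x.1 ∈ X → v.1 ∉ X → ConjClasses.mk x ≠ ConjClasses.mk v := fun x v hx hv e => by
    obtain ⟨g, rfl⟩ := isConj_iff.1 (ConjClasses.mk_eq_mk_iff_isConj.1 e)
    exact hv (hi g g.2 x hx)
  refine ⟨cov_avoid U hX {ConjClasses.mk 1} fun x hx => notMem_singleton.2 (k x 1 hx h1), fun v hv v1 vX => ?_⟩
  rw [← card_pair (a := ConjClasses.mk (1 : U)) (b := ConjClasses.mk ⟨v, hv⟩) fun e =>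
    v1 (congrArg Subtype.val (isConj_one_right.1 (ConjClasses.mk_eq_mk_iff_isConj.1 e)))]
  refine cov_avoid U hX _ fun x hx => ?_
  simpa using ⟨k x 1 hx h1, k x ⟨v, hv⟩ hx vX⟩

/-- Take `T` from `hX`, drop its points outside `φ.range`, lift each `u ∈ T` to `y ∈ H` and use `cov_coset` for
`N = φ.ker.map H.subtype`; unite these covers with `cov_self S`; `Cov.kc_le le_rfl`. -/
theorem cov_ext (φ : H →* Q) (hN : ∀ g : H, φ g = 1 ↔ g.1 ∈ N) (hNH : N ≤ H) (hS : S ≤ H) {X : Set Q}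
    (hi : ∀ g ∈ φ.range, ∀ x ∈ X, g * x * g⁻¹ ∈ X) (hX : Cov φ.range X D)
    (hc : ∀ z : H, φ z ∈ X → Nat.card ↥(N ⊓ Subgroup.centralizer {z.1}) ≤ c)
    (hall : ∀ z : H, φ z ∈ X ∨ ∃ g ∈ H, g * z * g⁻¹ ∈ S) : kc H ≤ kc S + D * c := by
  classical
  obtain ⟨T, hT, cT⟩ := hX
  obtain ⟨T₀, hT₀, c₀⟩ := cov_self S
  have : ∀ u : Q, ∃ R : Finset G, #R ≤ c ∧ (u ∈ X → ∀ z : H, φ z = u → ∃ h ∈ H, h * z * h⁻¹ ∈ R) := fun u => by
    by_cases hu : u ∈ X ∧ ∃ y : H, φ y = u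
    · obtain ⟨hu, y, rfl⟩ := hu
      have m : ∀ z : H, φ z = φ y ↔ z.1 * y.1⁻¹ ∈ N := fun z => by
        rw [← mul_inv_eq_one, ← map_inv, ← map_mul]; exact hN _
      obtain ⟨R, hR, cR⟩ := cov_coset (N := N) (y := y.1) (c := c) (fun x hx => (hN (y * ⟨x, hNH hx⟩ * y⁻¹)).1 (by
        simp [(hN ⟨x, hNH hx⟩).2 hx])) fun z hz => by
          have zH : z ∈ H := by simpa using H.mul_mem (hNH hz) y.2
          exact hc ⟨z, zH⟩ (((m ⟨z, zH⟩).2 hz).symm ▸ hu)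
      exact ⟨R, hR, fun _ z hz => (cR z ((m z).1 hz)).imp fun h a => ⟨hNH a.1, a.2⟩⟩
    · exact ⟨∅, Nat.zero_le _, fun a z hz => absurd ⟨a, z, hz⟩ hu⟩
  choose R hR cR using this
  refine Cov.kc_le le_rfl ⟨T₀ ∪ T.biUnion R, (card_union_le _ _).trans (add_le_add hT₀
    ((card_biUnion_le_card_mul _ _ c fun u _ => hR u).trans (Nat.mul_le_mul_right _ hT))), fun z hz => ?_⟩
  rcases hall ⟨z, hz⟩ with a | ⟨g, hg, a⟩
  · obtain ⟨_, ⟨g, rfl⟩, b⟩ := cT _ a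
    obtain ⟨h, hh, e⟩ := cR _ (hi _ ⟨g, rfl⟩ _ a) (g * ⟨z, hz⟩ * g⁻¹) (by simp)
    exact ⟨h * g, H.mul_mem hh g.2, mem_union_right _ (mem_biUnion.2 ⟨_, b, by simpa [mul_assoc] using e⟩)⟩
  · obtain ⟨h, hh, e⟩ := c₀ _ a
    exact ⟨h * g, H.mul_mem (hS hh) hg, mem_union_left _ (by simpa [mul_assoc] using e)⟩

open Classical in
/-- Count commuting pairs (`sum_cent` for `H` and for `N`). For `z ∈ H \ N`: `|C_H(z)| = 2 |C_N(z)|`; for `x ∈ N`:
`|C_H(x)| = |C_N(x)| + #{z ∈ H \ N | x z = z x}`. -/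
theorem idx2 [Fintype G] (hNH : N ≤ H) (h2 : ∀ x ∈ H, ∀ y ∈ H, x ∉ N → y ∉ N → x * y ∈ N) {y : G} (hy : y ∈ H)
    (hyN : y ∉ N) : 2 * kc H * Nat.card N =
      kc N * Nat.card N + 3 * ∑ z ∈ {z : G | z ∈ H ∧ z ∉ N}, Nat.card ↥(N ⊓ Subgroup.centralizer {z}) := by
  have cc : ∀ (K : Subgroup G) (z : G), Nat.card ↥(K ⊓ Subgroup.centralizer {z}) =
      ∑ x ∈ {x : G | x ∈ K}, if x * z = z * x then 1 else 0 := fun K z => by
    rw [← card_filter, filter_filter, Nat.card_eq_fintype_card, Fintype.card_subtype]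
    simp only [Subgroup.mem_inf, Subgroup.mem_centralizer_singleton_iff]
  have sc : ∀ K : Subgroup G, ∑ z ∈ {x : G | x ∈ K}, ∑ x ∈ {x : G | x ∈ K}, (if x * z = z * x then 1 else 0) =
      kc K * Nat.card K := fun K => by
    rw [← sum_cent, sum_subtype (p := (· ∈ K)) _ (by simp)]
    exact sum_congr rfl fun z _ => (cc K z).symm
  have sp : ∀ f : G → ℕ, ∑ x ∈ {x : G | x ∈ H}, f x =
      ∑ x ∈ {x : G | x ∈ N}, f x + ∑ x ∈ {z : G | z ∈ H ∧ z ∉ N}, f x := fun f => by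
    rw [← sum_filter_add_sum_filter_not _ (· ∈ N), filter_filter, filter_filter]
    congr 2
    exact filter_congr fun x _ => ⟨And.right, fun h => ⟨hNH h, h⟩⟩
  have tr : ∀ z ∈ H, z ∉ N → ∀ f : G → ℕ, ∑ x ∈ {z : G | z ∈ H ∧ z ∉ N}, f x = ∑ x ∈ {x : G | x ∈ N}, f (x * z) :=
    fun z hz hzN f => by
      refine (sum_bij (fun x _ => x * z) (fun x hx => ?_) (fun _ _ _ _ e => mul_right_cancel e) (fun x hx => ?_)
        fun _ _ => rfl).symm
      · have hx := (mem_filter.1 hx).2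
        exact mem_filter.2 ⟨mem_univ _, H.mul_mem (hNH hx) hz, fun k => hzN ((N.mul_mem_cancel_left hx).1 k)⟩
      · have hx := (mem_filter.1 hx).2
        exact ⟨x * z⁻¹, mem_filter.2 ⟨mem_univ _, h2 x hx.1 _ (H.inv_mem hz) hx.2 fun k => hzN (inv_mem_iff.1 k)⟩,
          by simp⟩
  have cH : Nat.card H = 2 * Nat.card N := by
    have := sp fun _ => 1
    rw [tr y hy hyN] at this
    simp only [sum_const, smul_eq_mul, mul_one, ← Fintype.card_subtype, ← Nat.card_eq_fintype_card] at this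
    omega
  have h := sc H
  rw [sp, cH] at h
  simp only [sp, sum_add_distrib] at h
  have e1 : ∑ z ∈ {z : G | z ∈ H ∧ z ∉ N}, ∑ x ∈ {z : G | z ∈ H ∧ z ∉ N}, (if x * z = z * x then 1 else 0) =
      ∑ z ∈ {z : G | z ∈ H ∧ z ∉ N}, ∑ x ∈ {x : G | x ∈ N}, if x * z = z * x then 1 else 0 :=
    sum_congr rfl fun z hz => by
      rw [tr z (mem_filter.1 hz).2.1 (mem_filter.1 hz).2.2]
      simp only [← mul_assoc, mul_left_inj]
  have e2 : ∑ z ∈ {x : G | x ∈ N}, ∑ x ∈ {z : G | z ∈ H ∧ z ∉ N}, (if x * z = z * x then 1 else 0) =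
      ∑ z ∈ {z : G | z ∈ H ∧ z ∉ N}, ∑ x ∈ {x : G | x ∈ N}, if x * z = z * x then 1 else 0 := by
    rw [sum_comm]
    simp only [eq_comm]
  rw [sc N, e1, e2] at h
  simp only [cc]
  linear_combination h.symm

end Cfsg.Lib.K3
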