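import Mathlib

/-! S4202: the bound `h` and all arithmetic. -/

set_option autoImplicit false

namespace Cfsg.Lib.K3

/-- the induction bound: `1, 1, 2, 3, 5`, then `4 k² ≤ 3ⁿ` (`7, 13, 23, 40, 70, 121, 210, 364, …`) -/
def h (n : ℕ) : ℕ := if n ≤ 4 then [1, 1, 2, 3, 5].getD n 0 else Nat.sqrt (3 ^ n / 4)

/-- bound for the groups `M ⊓ Fx Sᶜ`, `#S = s`, when `M` has minimal degree `5` and no Jordan set -/
def ga (s : ℕ) : ℕ := if s ≤ 4 then 1 else Nat.sqrt (4 * 3 ^ s / (9 * s ^ 2))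

/-- the same for minimal degree `4`, `s ≤ 7` -/
def gb (s : ℕ) : ℕ := [1, 1, 1, 1, 2, 2, 4, 6].getD s 0

variable {a b n k j s m r t W : ℕ}

theorem le_h (hn : 5 ≤ n) : k ≤ h n ↔ 4 * k ^ 2 ≤ 3 ^ n := by
  rw [h, if_neg (by omega), Nat.le_sqrt', Nat.le_div_iff_mul_le (by norm_num), mul_comm]

theorem h_five (hn : 5 ≤ n) : 4 * h n ^ 2 ≤ 3 ^ n := (le_h hn).1 le_rfl

theorem h_sq (hn : 1 ≤ n) : 9 * h n ^ 2 ≤ 4 * 3 ^ n := by
  rcases le_or_gt 5 n with c | c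
  · have := h_five c; omega
  · interval_cases n <;> decide

theorem le_ga (hs : 5 ≤ s) : k ≤ ga s ↔ 9 * (s * k) ^ 2 ≤ 4 * 3 ^ s := by
  rw [ga, if_neg (by omega), Nat.le_sqrt', Nat.le_div_iff_mul_le (by positivity)]
  constructor <;> intro c <;> nlinarith

/-- the statement's bound -/
theorem h_final (hn : 3 ≤ n) (hk : k ≤ h n) : k ^ 2 ≤ 3 ^ (n - 1) := by
  rcases le_or_gt 5 n with c | c
  · have e := (le_h c).1 hk
    obtain ⟨m, rfl⟩ : ∃ m, n = m + 1 := ⟨n - 1, by omega⟩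
    rw [pow_succ 3] at e
    rw [Nat.add_sub_cancel]
    omega
  · refine (Nat.pow_le_pow_left hk 2).trans ?_
    interval_cases n <;> decide

/-- `h_sq` twice (`4 * 16 ≤ 81`) for `5 ≤ a + b`; the rest by cases. -/
theorem h_mul (ha : 1 ≤ a) (hb : 1 ≤ b) : h a * h b ≤ h (a + b) := by
  rcases le_or_gt 5 (a + b) with c | c
  · rw [le_h c, pow_add, mul_pow]
    have e := Nat.mul_le_mul (h_sq ha) (h_sq hb)
    nlinarith [Nat.zero_le (h a ^ 2 * h b ^ 2)]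
  · have : a ≤ 3 := by omega
    have : b ≤ 3 := by omega
    interval_cases a <;> interval_cases b <;> first | omega | decide

theorem ga_aux (hj : 1 ≤ j) (h5 : 5 ≤ m) (h2 : j ≤ m) : h j ^ 2 * (j + m) ^ 2 ≤ 3 ^ j * m ^ 2 := by
  rcases le_or_gt 5 j with c | c
  · calc h j ^ 2 * (j + m) ^ 2 ≤ h j ^ 2 * (2 * m) ^ 2 := by gcongr; omega
      _ = 4 * h j ^ 2 * m ^ 2 := by ring
      _ ≤ _ := by gcongr; exact h_five c
  · have e1 : h 1 = 1 := rfl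
    have e2 : h 2 = 2 := rfl
    have e3 : h 3 = 3 := rfl
    have e4 : h 4 = 5 := rfl
    interval_cases j <;> simp only [e1, e2, e3, e4] <;> nlinarith

/-- `le_ga`. `5 ≤ j`: `h_five`, `s ≤ 2 (s - j)`. `j ≤ 4`: if `s - j ≤ 4` then `s ≤ 8`, cases; else `5 ≤ s - j` and
`h j ^ 2 * s ^ 2 ≤ 3 ^ j * (s - j) ^ 2` (`j = 1, 2, 3, 4` holds from `s ≥ 3, 6, 8, 9`). -/
theorem ga_step (hs : 5 ≤ s) (hj : 1 ≤ j) (h2 : 2 * j ≤ s) : h j * ga (s - j) ≤ ga s := by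
  rw [le_ga hs]
  obtain ⟨m, rfl⟩ : ∃ m, s = j + m := ⟨s - j, by omega⟩
  rw [Nat.add_sub_cancel_left]
  rcases le_or_gt 5 m with c | c
  · have e1 := (le_ga c).1 (le_refl (ga m))
    have e2 := ga_aux hj c (by omega)
    calc 9 * ((j + m) * (h j * ga m)) ^ 2 = h j ^ 2 * (j + m) ^ 2 * (9 * ga m ^ 2) := by ring
      _ ≤ 3 ^ j * m ^ 2 * (9 * ga m ^ 2) := by gcongr
      _ = 3 ^ j * (9 * (m * ga m) ^ 2) := by ring
      _ ≤ 3 ^ j * (4 * 3 ^ m) := by gcongr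
      _ = _ := by ring
  · rw [ga, if_pos (by omega)]
    have : j ≤ 4 := by omega
    interval_cases j <;> interval_cases m <;> first | omega | decide

theorem gb_step (hs : 4 ≤ s) (h7 : s ≤ 7) (hj : 1 ≤ j) (h2 : 2 * j ≤ s) : h j * gb (s - j) ≤ gb s := by
  have : j ≤ 3 := by omega
  interval_cases s <;> interval_cases j <;> first | omega | decide

theorem sq_pow (hm : 3 ≤ m) : 25 * (m + 1) ^ 2 ≤ 16 * 3 ^ m := by
  induction m, hm using Nat.le_induction with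
  | base => norm_num
  | succ m hm ih => rw [pow_succ 3]; nlinarith

/-- `k ≥ 2`: `4 + k (m - 3) ≤ m k`, `le_ga`; `k ≤ 1`: `25 (m + 1)² ≤ 16 · 3^m`. -/
theorem ga_fin (hm : 3 ≤ m) (hk : k ≤ ga m) : 25 * (4 + k * (m - 3)) ^ 2 ≤ 16 * 3 ^ m := by
  obtain ⟨u, rfl⟩ : ∃ u, m = u + 3 := ⟨m - 3, by omega⟩
  rw [Nat.add_sub_cancel]
  rcases le_or_gt k 1 with c | c
  · refine le_trans ?_ (sq_pow hm)
    have : 4 + k * u ≤ u + 3 + 1 := by nlinarith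
    gcongr
  · have h5 : 5 ≤ u + 3 := by
      by_contra c5
      rw [ga, if_pos (by omega)] at hk
      omega
    have e := (le_ga h5).1 hk
    have e2 : (4 + k * u) ^ 2 ≤ ((u + 3) * k) ^ 2 := by
      gcongr
      nlinarith
    omega

theorem gb_fin (hm : 3 ≤ m) (h7 : m ≤ 7) (hk : k ≤ gb m) : 25 * (4 + k * (m - 3)) ^ 2 ≤ 16 * 3 ^ m := by
  refine le_trans (b := 25 * (4 + gb m * (m - 3)) ^ 2) (by gcongr) ?_
  interval_cases m <;> decide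

theorem fin1 (hr : 3 ≤ r) (hW : 25 * W ^ 2 ≤ 16 * 3 ^ r) : W ≤ h (r + 1) := by
  rcases le_or_gt 4 r with c | c
  · rw [le_h (by omega), pow_succ 3]
    omega
  · obtain rfl : r = 3 := by omega
    have e4 : h 4 = 5 := rfl
    rw [e4]
    nlinarith

/-- `le_h`; worst case `t = 6`: `1 + 16 · 0.8 x ≤ 13.5 x`, `x² = 3^r ≥ 27`. -/
theorem fin2 (hr : 3 ≤ r) (h2 : 2 ≤ t) (h6 : t ≤ 6) (hW : 25 * W ^ 2 ≤ 16 * 3 ^ r) :
    1 + 2 ^ (t - 2) * W ≤ h (r + t) := by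
  rw [le_h (by omega), pow_add]
  have e : 3 ^ 3 ≤ 3 ^ r := Nat.pow_le_pow_right (by norm_num) hr
  generalize 3 ^ r = x at *
  interval_cases t <;> norm_num <;> nlinarith [sq_nonneg (W - 1 : ℤ)]

end Cfsg.Lib.K3
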