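import Cfsg.Agent.Lib.KC.Main
import Cfsg.Agent.Lib.K3.Num

/-! S4202: the induction hypothesis for `p'`-groups and its use on orbits, families, blocks. -/

set_option autoImplicit false

namespace Cfsg.Lib.K3

open Equiv Finset Cfsg.Lib.SNL Cfsg.Lib.KC
open scoped Pointwise

/-- all `p'`-groups of degree `< n` satisfy the bound -/
def IH (p n : ℕ) : Prop := ∀ j < n, ∀ H : Subgroup (Perm (Fin j)), ¬ p ∣ Nat.card H → kc H ≤ h j

variable {p n : ℕ}

section gen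

variable {G : Type*} [Group G] {H K : Subgroup G} {β : Type*} [Fintype β] [DecidableEq β]

theorem nd_le (hp : ¬ p ∣ Nat.card K) (e : H ≤ K) : ¬ p ∣ Nat.card H := fun c =>
  hp (c.trans (Subgroup.card_dvd_of_le e))

theorem IH.le (ih : IH p n) (hβ : Fintype.card β < n) (H : Subgroup (Perm β)) (hp : ¬ p ∣ Nat.card H) :
    kc H ≤ h (Fintype.card β) := by
  rw [← kc_map (Fintype.equivFin β).permCongrHom.toMonoidHom (Fintype.equivFin β).permCongrHom.injective]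
  exact ih _ hβ _ (by rwa [Subgroup.card_map_of_injective (Fintype.equivFin β).permCongrHom.injective])

theorem IH.range (ih : IH p n) (hβ : Fintype.card β < n) (hp : ¬ p ∣ Nat.card H) (φ : H →* Perm β) :
    kc φ.range ≤ h (Fintype.card β) :=
  ih.le hβ _ fun c => hp (c.trans (Subgroup.card_range_dvd φ))

theorem IH.act [Finite G] (ih : IH p n) (hβ : Fintype.card β < n) (hp : ¬ p ∣ Nat.card H) (φ : H →* Perm β)
    (N : Subgroup G) (hN : ∀ g : H, φ g = 1 ↔ g.1 ∈ N) : kc H ≤ h (Fintype.card β) * kc (H ⊓ N) := by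
  have e : H ⊓ N = φ.ker.map H.subtype :=
    Subgroup.ext fun g => ⟨fun h => ⟨⟨g, h.1⟩, (hN _).2 h.2, rfl⟩, fun ⟨x, a, b⟩ => b ▸ ⟨x.2, (hN _).1 a⟩⟩
  rw [e, kc_map _ H.subtype_injective, mul_comm]
  refine (Cfsg.Agent.S4201.result φ.ker).trans (Nat.mul_le_mul_left _ ?_)
  rw [classes_congr (QuotientGroup.quotientKerEquivRange φ)]
  exact ih.range hβ hp φ

end gen

variable {α : Type*} [Fintype α] [DecidableEq α] {K : Subgroup (Perm α)} {B : Finset α} {E : Finset (Finset α)}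

theorem IH.res (ih : IH p n) (hp : ¬ p ∣ Nat.card K) (hB : #B < n) (hi : ∀ g ∈ K, ∀ x ∈ B, g x ∈ B) :
    kc K ≤ h #B * kc (K ⊓ Fx B) := by
  letI : MulAction K B := { smul g x := ⟨g.1 x, hi _ g.2 _ x.2⟩, one_smul _ := rfl, mul_smul _ _ _ := rfl }
  have := ih.act (β := B) (by rwa [Fintype.card_coe]) hp (MulAction.toPermHom K B) (Fx B) fun g => ⟨fun hg x hx =>
    congrArg (fun e : Perm B => (e ⟨x, hx⟩).1) hg, fun hg => Equiv.ext fun x => Subtype.ext (hg _ x.2)⟩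
  rwa [Fintype.card_coe] at this

theorem IH.fam (ih : IH p n) (hp : ¬ p ∣ Nat.card K) (hE : #E < n) (hi : ∀ g ∈ K, ∀ B ∈ E, g • B ∈ E) :
    ∃ N ≤ K, (∀ g ∈ N, ∀ B ∈ E, g • B = B) ∧ kc K ≤ h #E * kc N := by
  letI : MulAction K E :=
    { smul g x := ⟨g.1 • x.1, hi _ g.2 _ x.2⟩, one_smul _ := Subtype.ext (one_smul _ _)
      mul_smul _ _ _ := Subtype.ext (mul_smul _ _ _) }
  have := ih.act (β := E) (by rwa [Fintype.card_coe]) hp (MulAction.toPermHom K E)
    (⨅ B ∈ E, MulAction.stabilizer (Perm α) B) fun g => ⟨fun hg =>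
    Subgroup.mem_iInf.2 fun x => Subgroup.mem_iInf.2 fun hx => congrArg (fun e : Perm E => (e ⟨x, hx⟩).1) hg,
    fun hg => Equiv.ext fun x => Subtype.ext (Subgroup.mem_iInf.1 (Subgroup.mem_iInf.1 hg x.1) x.2)⟩
  rw [Fintype.card_coe] at this
  exact ⟨_, inf_le_left, fun g hg B hB => Subgroup.mem_iInf.1 (Subgroup.mem_iInf.1 hg.2 B) hB, this⟩

theorem IH.prod (ih : IH p n) (hp : ¬ p ∣ Nat.card K) (hE : ∀ B ∈ E, #B < n) (hi : ∀ g ∈ K, ∀ B ∈ E, g • B = B) :
    ∃ N ≤ K, (∀ g ∈ N, ∀ B ∈ E, ∀ x ∈ B, g x = x) ∧ kc K ≤ (∏ B ∈ E, h #B) * kc N := by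
  induction E using Finset.induction_on generalizing K with
  | empty => exact ⟨K, le_rfl, by simp, by simp⟩
  | insert C E hC ih' =>
    have h1 := ih.res (K := K) (B := C) hp (hE C (mem_insert_self _ _)) fun g hg x hx =>
      hi g hg C (mem_insert_self _ _) ▸ smul_mem_smul_finset hx
    obtain ⟨N, a, b, c⟩ := ih' (K := K ⊓ Fx C) (nd_le hp inf_le_left) (fun B hB => hE B (mem_insert_of_mem hB))
      fun g hg B hB => hi g hg.1 B (mem_insert_of_mem hB)
    refine ⟨N, a.trans inf_le_left, fun g hg B hB => ?_, by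
      rw [prod_insert hC, mul_assoc]; exact h1.trans (Nat.mul_le_mul_left _ c)⟩
    exact (mem_insert.1 hB).elim (fun e => e ▸ (a hg).2) (b g hg B)

end Cfsg.Lib.K3
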