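import Cfsg.Agent.Lib.K3.Cov

/-! S4202: imprimitive groups with small blocks. -/

set_option autoImplicit false

namespace Cfsg.Lib.K3

open Equiv Finset Cfsg.Lib.SNL Cfsg.Lib.KC
open scoped Pointwise

/-- A smallest `E` with the second property is disjoint from `σ E`. -/
theorem exists_half {β : Type*} [Fintype β] [DecidableEq β] {σ : Perm β} (hσ : ∀ x, σ x ≠ x) :
    ∃ E : Finset β, 2 * #E ≤ Fintype.card β ∧ ∀ x, ∃ k : ℕ, (σ ^ k) x ∈ E := by
  classical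
  obtain ⟨E, hE, hm⟩ := exists_min_image {E : Finset β | ∀ x, ∃ k : ℕ, (σ ^ k) x ∈ E} card
    ⟨univ, mem_filter.2 ⟨mem_univ _, fun x => ⟨0, mem_univ _⟩⟩⟩
  replace hE := (mem_filter.1 hE).2
  refine ⟨E, ?_, hE⟩
  have hd : Disjoint E (E.map σ.toEmbedding) := disjoint_right.2 fun y hy hy' => by
    obtain ⟨e, he, rfl⟩ := mem_map.1 hy
    refine (hm (E.erase e) (mem_filter.2 ⟨mem_univ _, fun x => ?_⟩)).not_gt (card_erase_lt_of_mem he)
    obtain ⟨k, hk⟩ := hE x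
    by_cases c : (σ ^ k) x = e
    · exact ⟨k + 1, mem_erase.2 (by rw [pow_succ', Perm.mul_apply, c]; exact ⟨hσ e, hy'⟩)⟩
    · exact ⟨k, mem_erase.2 ⟨c, hk⟩⟩
  have := card_le_univ (E ∪ E.map σ.toEmbedding)
  rwa [card_union_of_disjoint hd, card_map, ← two_mul] at this

variable {α : Type*} [Fintype α] [DecidableEq α] {M N : Subgroup (Perm α)} {P E : Finset (Finset α)}
  {p n a b : ℕ} {z : Perm α}

omit [Fintype α] in
theorem der_mem {B : Finset α} {x : α} (h : z • B = B) : z x ∈ B ↔ x ∈ B := by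
  conv_lhs => rw [← h]
  exact smul_mem_smul_finset_iff z

/-- An element of `N ⊓ C(z)` is determined by its restrictions to the `B ∈ E`. -/
theorem cent_le (hcov : ∀ x, ∃ B ∈ P, x ∈ B) (ha : ∀ B ∈ E, #B = a) (hN : ∀ g ∈ N, ∀ B ∈ E, g • B = B)
    (hE : ∀ B ∈ P, ∃ k : ℕ, z ^ k • B ∈ E) : Nat.card ↥(N ⊓ Subgroup.centralizer {z}) ≤ a.factorial ^ #E := by
  let r : ↥(N ⊓ Subgroup.centralizer {z}) → ∀ B : E, Perm B.1 := fun g B =>
    g.1.subtypePerm fun x => der_mem (hN _ g.2.1 _ B.2)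
  have hr : Function.Injective r := fun g g' e => Subtype.ext (Equiv.ext fun x => by
    obtain ⟨B, hB, hx⟩ := hcov x
    obtain ⟨k, hk⟩ := hE B hB
    have c : ∀ g : ↥(N ⊓ Subgroup.centralizer {z}), g.1 ((z ^ k) x) = (z ^ k) (g.1 x) := fun g =>
      DFunLike.congr_fun (Commute.pow_right (Subgroup.mem_centralizer_singleton_iff.1 g.2.2) k).eq x
    have : g.1 ((z ^ k) x) = g'.1 ((z ^ k) x) :=
      congrArg (fun f : ∀ B : E, Perm B.1 => (f ⟨_, hk⟩ ⟨_, smul_mem_smul_finset hx⟩).1) e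
    rw [c, c] at this
    exact (z ^ k).injective this)
  refine (Nat.card_le_card_of_injective r hr).trans_eq ?_
  rw [Nat.card_pi, prod_congr rfl fun B _ => (Nat.card_perm.trans (congrArg _
    ((Nat.card_eq_finsetCard B.1).trans (ha _ B.2)))), prod_const, card_univ, Fintype.card_coe]

/-- `φ : M →* Perm ↥P` as in `IH.fam`, `N` its kernel, `S = M ⊓ stabilizer B₀`, `X` the fixed-point-free elements of
`φ.range`; `cov_ext` with `c = a!^(b/2)` (`exists_half`, `cent_le`); an element fixing a block is conjugate into `S`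
(`hT`). `IH.range`, `cov_miss`. If `S ≤ N` then `kc S ≤ h a ^ b` (`IH.prod`), second option; else take `v = φ s ≠ 1`, and
`kc S ≤ h a * h (a b - a)` (`IH.res` on `B₀`, then on `B₀ᶜ`, `fx_bot`), first option. -/
theorem der (ih : IH p (Fintype.card α)) (hd : ¬ p ∣ Nat.card M) (hP : Cells M univ P) (hT : Tr M univ)
    (ha : ∀ B ∈ P, #B = a) (hb : #P = b) (a2 : 2 ≤ a) (b2 : 2 ≤ b) :
    kc M ≤ h a * h (a * b - a) + (h b - 2) * a.factorial ^ (b / 2) ∨
      kc M ≤ h a ^ b + (h b - 1) * a.factorial ^ (b / 2) := by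
  letI : MulAction M P :=
    { smul g x := ⟨g.1 • x.1, hP.inv _ g.2 _ x.2⟩, one_smul _ := Subtype.ext (one_smul _ _)
      mul_smul _ _ _ := Subtype.ext (mul_smul _ _ _) }
  let φ := MulAction.toPermHom M P
  have hφ : ∀ (g : M) (B : P), (φ g B).1 = g.1 • B.1 := fun _ _ => rfl
  have cα : Fintype.card α = a * b := by
    rw [← card_univ, ← hP.sum_card, sum_congr rfl ha, sum_const, hb, smul_eq_mul, mul_comm]
  have ab : a < a * b ∧ b < a * b := ⟨by nlinarith, by nlinarith⟩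
  have ne : ∀ B ∈ P, B.Nonempty := fun B hB => card_pos.1 (by rw [ha B hB]; omega)
  obtain ⟨B₀, hB₀⟩ := card_pos.1 (show 0 < #P by omega)
  let N := φ.ker.map M.subtype
  have hN : ∀ g : M, φ g = 1 ↔ g.1 ∈ N := fun g => ⟨fun e => ⟨g, e, rfl⟩, fun ⟨x, e, e'⟩ => Subtype.ext e' ▸ e⟩
  have hN' : ∀ g ∈ N, ∀ B ∈ P, g • B = B := by
    rintro _ ⟨g, e, rfl⟩ B hB
    exact (hφ g ⟨B, hB⟩).symm.trans (by rw [MonoidHom.mem_ker.1 e]; rfl)
  let S := M ⊓ MulAction.stabilizer (Perm α) B₀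
  let X : Set (Perm P) := {σ | σ ∈ φ.range ∧ ∀ B, σ B ≠ B}
  have hi : ∀ g ∈ φ.range, ∀ x ∈ X, g * x * g⁻¹ ∈ X := fun g hg x hx =>
    ⟨mul_mem (mul_mem hg hx.1) (inv_mem hg), fun B e => hx.2 (g⁻¹ B) (Perm.eq_inv_iff_eq.2 e)⟩
  have main : ∀ D, Cov φ.range X D → kc M ≤ kc S + D * a.factorial ^ (b / 2) := fun D hD =>
    cov_ext φ hN (Subgroup.map_subtype_le _) inf_le_left hi hD (fun z hz => by
      obtain ⟨E, e1, e2⟩ := exists_half hz.2
      rw [Fintype.card_coe, hb] at e1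
      refine (cent_le (E := E.map (Function.Embedding.subtype _)) (fun x => hP.cov x (mem_univ x)) ?_ ?_
        fun B hB => (e2 ⟨B, hB⟩).imp fun k hk => mem_map.2 ⟨_, hk, by rw [← map_pow]; rfl⟩).trans
          (Nat.pow_le_pow_right a.factorial_pos (by rw [card_map]; omega))
      · intro B hB
        obtain ⟨C, -, rfl⟩ := mem_map.1 hB
        exact ha _ C.2
      · intro g hg B hB
        obtain ⟨C, -, rfl⟩ := mem_map.1 hB
        exact hN' g hg _ C.2) fun z => or_iff_not_imp_left.2 fun hz => by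
      obtain ⟨B, e⟩ : ∃ B, φ z B = B := by_contra fun c => hz ⟨⟨z, rfl⟩, fun B e => c ⟨B, e⟩⟩
      obtain ⟨x, hx⟩ := ne _ B.2
      obtain ⟨y, hy⟩ := ne _ hB₀
      obtain ⟨g, hg, e1⟩ := hT x (mem_univ _) y (mem_univ _)
      have e2 : g • B.1 = B₀ := hP.dis _ (hP.inv g hg _ B.2) _ hB₀ y (e1 ▸ smul_mem_smul_finset hx) hy
      refine ⟨g, hg, M.mul_mem (M.mul_mem hg z.2) (M.inv_mem hg), MulAction.mem_stabilizer_iff.2 ?_⟩
      rw [← e2, mul_smul, mul_smul, inv_smul_smul, ← hφ, e]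
  have r := ih.range (β := P) (by rw [Fintype.card_coe]; omega) hd φ
  rw [Fintype.card_coe, hb] at r
  obtain ⟨m1, m2⟩ := cov_miss φ.range (X := X) (fun _ h => h.1) hi fun h => h.2 ⟨B₀, hB₀⟩ rfl
  have dS := nd_le hd (inf_le_left : S ≤ M)
  by_cases c : S ≤ N
  · obtain ⟨T, -, t1, t2⟩ := ih.prod (E := P) dS (fun B hB => by rw [ha B hB]; omega) fun g hg => hN' g (c hg)
    have hT : T = ⊥ := eq_bot_iff.2 fun g hg => Equiv.ext fun x =>
      let ⟨B, k, k'⟩ := hP.cov x (mem_univ _); t1 g hg B k x k'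
    rw [hT, kc_bot, mul_one, prod_congr rfl fun B hB => congrArg h (ha B hB), prod_const, hb] at t2
    exact .inr ((main _ m1).trans (add_le_add t2 (Nat.mul_le_mul_right _ (by omega))))
  · obtain ⟨s, hs, hs'⟩ := SetLike.not_le_iff_exists.1 c
    have h1 := ih.res (B := B₀) dS (by rw [ha _ hB₀]; omega) fun g hg x hx => (der_mem hg.2).2 hx
    have h2 := ih.res (K := S ⊓ Fx B₀) (B := B₀ᶜ) (nd_le dS inf_le_left) (by rw [card_compl, ha _ hB₀]; omega)
      fun g hg x hx => mem_compl.2 fun e => mem_compl.1 hx ((der_mem hg.1.2).1 e)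
    rw [fx_bot (M := S ⊓ Fx B₀) (R := B₀ᶜ) (by rw [compl_compl]; exact inf_le_right), kc_bot, mul_one, card_compl,
      ha _ hB₀, cα] at h2
    rw [ha _ hB₀] at h1
    exact .inl ((main _ (m2 (φ ⟨s, hs.1⟩) ⟨_, rfl⟩ (fun e => hs' ((hN _).1 e)) fun e =>
      e.2 ⟨B₀, hB₀⟩ (Subtype.ext hs.2))).trans
        (add_le_add (h1.trans (Nat.mul_le_mul_left _ h2)) (Nat.mul_le_mul_right _ (by omega))))

end Cfsg.Lib.K3
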