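import Cfsg.Agent.Lib.K3.Der

/-! S4202: two blocks of size at most four. -/

set_option autoImplicit false

namespace Cfsg.Lib.K3

open Equiv Finset Cfsg.Lib.SNL Cfsg.Lib.KC
open scoped Pointwise

variable {α : Type*} [Fintype α] [DecidableEq α] {M N : Subgroup (Perm α)} {P : Finset (Finset α)} {B : Finset α}
  {p n a : ℕ} {z : Perm α}

/-- Restriction to `B` embeds `N ⊓ C(z)` into the centralizer in `Perm ↥B` of the restriction of `z * z`, which is not
`1` (a point outside `B` is `z x`, `x ∈ B`), hence not central as `3 ≤ #B`: a proper subgroup. -/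
theorem cent_half (h3 : 3 ≤ #B) (hN : ∀ g ∈ N, g • B = B) (hz : ∀ x, x ∈ B ↔ z x ∉ B) (h1 : z * z ≠ 1) :
    2 * Nat.card ↥(N ⊓ Subgroup.centralizer {z}) ≤ (#B).factorial := by
  have out : ∀ y ∉ B, ∃ x ∈ B, z x = y := fun y hy => ⟨z⁻¹ y, (hz _).2 (by simpa using hy), by simp⟩
  have hw : ∀ x, (z * z) x ∈ B ↔ x ∈ B := fun x => by rw [Perm.mul_apply, hz x, hz (z x), not_not]
  let w : Perm B := (z * z).subtypePerm hw
  have cz : ∀ g : ↥(N ⊓ Subgroup.centralizer {z}), ∀ x, g.1 (z x) = z (g.1 x) := fun g x =>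
    DFunLike.congr_fun (Subgroup.mem_centralizer_singleton_iff.1 g.2.2) x
  let r : ↥(N ⊓ Subgroup.centralizer {z}) → Subgroup.centralizer {w} := fun g =>
    ⟨g.1.subtypePerm fun x => der_mem (hN _ g.2.1), Subgroup.mem_centralizer_singleton_iff.2
      (Equiv.ext fun x => Subtype.ext ((cz g _).trans (congrArg z (cz g _))))⟩
  have hr : Function.Injective r := fun g g' e => Subtype.ext (Equiv.ext fun y => by
    have k : ∀ x ∈ B, g.1 x = g'.1 x := fun x hx =>
      congrArg (fun f : Subgroup.centralizer {w} => (f.1 ⟨x, hx⟩).1) e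
    by_cases c : y ∈ B
    · exact k y c
    · obtain ⟨x, hx, rfl⟩ := out y c
      rw [cz, cz, k x hx])
  have w1 : ∃ x, w x ≠ x := by_contra fun c => h1 (Equiv.ext fun y => by
    have k : ∀ x ∈ B, z (z x) = x := fun x hx =>
      congrArg Subtype.val (by_contra fun e => c ⟨⟨x, hx⟩, e⟩ : w ⟨x, hx⟩ = ⟨x, hx⟩)
    by_cases c : y ∈ B
    · exact k y c
    · obtain ⟨x, hx, rfl⟩ := out y c
      exact congrArg z (k x hx))
  have nt : Subgroup.centralizer {w} ≠ ⊤ := fun e => by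
    obtain ⟨x, hx⟩ := w1
    obtain ⟨u, -, hu⟩ : ∃ u ∈ (univ : Finset B), u ∉ ({x, w x} : Finset B) :=
      exists_mem_notMem_of_card_lt_card (by rw [card_pair hx.symm, card_univ, Fintype.card_coe]; omega)
    rw [mem_insert, mem_singleton, not_or] at hu
    have := DFunLike.congr_fun (Subgroup.mem_centralizer_singleton_iff.1 (e.ge (Subgroup.mem_top (swap (w x) u)))) x
    rw [Perm.mul_apply, Perm.mul_apply, swap_apply_left, swap_apply_of_ne_of_ne hx.symm (Ne.symm hu.1)] at this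
    exact hu.2 this
  have := (Subgroup.centralizer {w}).index_mul_card
  rw [Nat.card_perm, Nat.card_eq_finsetCard] at this
  exact (Nat.mul_le_mul (Subgroup.one_lt_index_of_ne_top nt) (Nat.card_le_card_of_injective r hr)).trans_eq this

/-- `P = {B, Bᶜ}`, `N = M ⊓ stabilizer B` has index `2`, `kc N ≤ h a ^ 2` (`IH.prod`), `idx2`, and `M \ N` has `card N`
elements, each with `|C_N(z)| ≤ a!` (`cent_le`, `E = {B}`). `a = 2`: `2 k ≤ 4 + 3 · 2`. `a = 3, 4`: if `N ⊓ Fx Bᶜ = ⊥` then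
`k ≤ h 2 * kc N ≤ 2 * h a` (`IH.fam`, `IH.res`). Else take `1 ≠ u ∈ N ⊓ Fx Bᶜ`: for `z ∈ M \ N` with `z * z = 1`,
`(u z)² = u` on `B`, so `u z` is no involution; at most half of `M \ N` are involutions, and `cent_half` gives
`4 ∑ ≤ 3 a! |N|`, `8 k ≤ 4 h(a)² + 9 a!`, `k ≤ 11`, `39`. -/
theorem two (ih : IH p (Fintype.card α)) (hd : ¬ p ∣ Nat.card M) (hP : Cells M univ P) (hT : Tr M univ)
    (ha : ∀ B ∈ P, #B = a) (hb : #P = 2) (a2 : 2 ≤ a) (a4 : a ≤ 4) : kc M ≤ h (a * 2) := by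
  classical
  have cα : Fintype.card α = a * 2 := by
    rw [← card_univ, ← hP.sum_card, sum_congr rfl ha, sum_const, hb, smul_eq_mul, mul_comm]
  obtain ⟨B, C, n, rfl⟩ := card_eq_two.1 hb
  have hB : B ∈ ({B, C} : Finset (Finset α)) := mem_insert_self _ _
  have hC : C ∈ ({B, C} : Finset (Finset α)) := mem_insert_of_mem (mem_singleton_self _)
  have eC : ∀ x, x ∈ C ↔ x ∉ B := fun x => ⟨fun c e => n (hP.dis _ hB _ hC x e c), fun c => by
    obtain ⟨D, hD, e⟩ := hP.cov x (mem_univ _)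
    rcases mem_insert.1 hD with rfl | hD
    exacts [absurd e c, mem_singleton.1 hD ▸ e]⟩
  obtain rfl : C = Bᶜ := by ext x; rw [eC, mem_compl]
  let N := M ⊓ MulAction.stabilizer (Perm α) B
  have st : ∀ {g : Perm α}, (∀ x, g x ∈ B ↔ x ∈ B) → g • B = B := fun {g} e => by
    ext x; rw [cx_mem, ← e]; simp
  have sw : ∀ g ∈ M, g ∉ N → ∀ x, x ∈ B ↔ g x ∉ B := fun g hg c x => by
    rw [← mem_compl, ← mem_singleton.1 ((mem_insert.1 (hP.inv g hg B hB)).resolve_left fun e => c ⟨hg, e⟩)]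
    exact (smul_mem_smul_finset_iff g).symm
  have h2 : ∀ x ∈ M, ∀ y ∈ M, x ∉ N → y ∉ N → x * y ∈ N := fun x hx y hy c c' =>
    ⟨M.mul_mem hx hy, st fun u => by rw [Perm.mul_apply, sw y hy c' u, sw x hx c (y u), not_not]⟩
  have aB := ha B hB
  obtain ⟨x, hx⟩ := card_pos.1 (show 0 < #B by omega)
  obtain ⟨x', hx'⟩ := card_pos.1 (show 0 < #Bᶜ by rw [ha _ hC]; omega)
  obtain ⟨y, hy, e⟩ := hT x (mem_univ _) x' (mem_univ _)
  have yN : y ∉ N := fun c => mem_compl.1 hx' (e ▸ (der_mem c.2).2 hx)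
  obtain ⟨D, hD, key⟩ : ∃ D : Finset (Perm α), (∀ z, z ∈ D ↔ z ∈ M ∧ z ∉ N) ∧ 2 * kc M * Nat.card N =
      kc N * Nat.card N + 3 * ∑ z ∈ D, Nat.card ↥(N ⊓ Subgroup.centralizer {z}) :=
    ⟨_, by simp, idx2 inf_le_left h2 hy yN⟩
  have cD : #D ≤ Nat.card N := by
    rw [← Nat.card_eq_finsetCard]
    exact Nat.card_le_card_of_injective (fun z : D => (⟨z.1 * y, h2 _ ((hD _).1 z.2).1 _ hy ((hD _).1 z.2).2 yN⟩ : N))
      fun z z' e => Subtype.ext (mul_right_cancel (congrArg Subtype.val e))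
  have dN := nd_le hd (inf_le_left : N ≤ M)
  have iN : ∀ g ∈ N, ∀ u ∈ Bᶜ, g u ∈ Bᶜ := fun g hg u hu => mem_compl.2 fun e => mem_compl.1 hu ((der_mem hg.2).1 e)
  have kN : kc N ≤ h a * h a := by
    have h1 := ih.res (B := B) dN (by omega) fun g hg x hx => (der_mem hg.2).2 hx
    have h3 := ih.res (K := N ⊓ Fx B) (B := Bᶜ) (nd_le dN inf_le_left) (by rw [ha _ hC]; omega)
      fun g hg => iN g hg.1
    rw [fx_bot (M := N ⊓ Fx B) (R := Bᶜ) (by rw [compl_compl]; exact inf_le_right), kc_bot, mul_one, ha _ hC] at h3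
    rw [aB] at h1
    exact h1.trans (Nat.mul_le_mul_left _ h3)
  have c1 : ∀ z ∈ D, Nat.card ↥(N ⊓ Subgroup.centralizer {z}) ≤ a.factorial := fun z hz => by
    have := cent_le (P := {B, Bᶜ}) (E := {B}) (N := N) (z := z) (a := a) (fun x => hP.cov x (mem_univ x))
      (fun C hC => mem_singleton.1 hC ▸ aB) (fun g hg C hC => mem_singleton.1 hC ▸ hg.2) fun C hC => by
        rcases mem_insert.1 hC with rfl | hC
        · exact ⟨0, by simp⟩
        · refine ⟨1, mem_singleton.2 ?_⟩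
          ext u
          rw [mem_singleton.1 hC, pow_one, cx_mem, mem_compl, sw z ((hD _).1 hz).1 ((hD _).1 hz).2]
          simp
    rwa [card_singleton, pow_one] at this
  have N0 : 0 < Nat.card N := Nat.card_pos
  have kN' := Nat.mul_le_mul_right (Nat.card N) kN
  obtain rfl | a3 := a2.eq_or_lt
  · have := sum_le_card_nsmul _ _ _ c1
    rw [smul_eq_mul] at this
    refine Nat.le_of_mul_le_mul_right (c := Nat.card N) ?_ N0
    change kc N * _ ≤ 4 * _ at kN'
    change _ ≤ #D * 2 at this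
    change _ ≤ 5 * _
    nlinarith
  by_cases c : N ⊓ Fx Bᶜ = ⊥
  · obtain ⟨T, hT, t1, t2⟩ := ih.fam hd (by omega) hP.inv
    have TN : T ≤ N := fun g hg => ⟨hT hg, t1 g hg B hB⟩
    have h3 := ih.res (B := Bᶜ) (nd_le hd hT) (by rw [ha _ hC]; omega) fun g hg => iN g (TN hg)
    rw [eq_bot_iff.2 ((inf_le_inf_right _ TN).trans c.le), kc_bot, mul_one, ha _ hC] at h3
    rw [hb] at t2
    refine (t2.trans (Nat.mul_le_mul_left _ h3)).trans ((le_h (by omega)).2 ?_)
    interval_cases a <;> decide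
  obtain ⟨⟨u, hu⟩, u1⟩ := Subgroup.ne_bot_iff_exists_ne_one.1 c
  have inj : #{z ∈ D | z * z = 1} ≤ #{z ∈ D | ¬ z * z = 1} := card_le_card_of_injOn (u * ·) (fun z hz => by
    obtain ⟨hz, e⟩ := mem_filter.1 hz
    obtain ⟨z1, z2⟩ := (hD _).1 hz
    refine mem_filter.2 ⟨(hD _).2 ⟨M.mul_mem hu.1.1 z1, fun c => z2 ((N.mul_mem_cancel_left hu.1).1 c)⟩,
      fun e' => u1 (Subtype.ext (Equiv.ext fun x => (em (x ∈ B)).elim (fun hx => ?_) fun hx => hu.2 x (mem_compl.2 hx)))⟩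
    have := DFunLike.congr_fun e' x
    rwa [Perm.mul_apply, Perm.mul_apply, Perm.mul_apply, hu.2 _ (mem_compl.2 ((sw z z1 z2 x).1 hx)),
      ← Perm.mul_apply z z, e] at this) fun _ _ _ _ e => mul_left_cancel e
  have s1 := sum_le_card_nsmul {z ∈ D | z * z = 1} _ _ fun z hz => c1 z (mem_filter.1 hz).1
  have s2 := sum_le_card_nsmul {z ∈ D | ¬ z * z = 1} _ _ fun z hz => cent_half (N := N) (B := B) (by omega)
    (fun g hg => hg.2) (sw z ((hD _).1 (mem_filter.1 hz).1).1 ((hD _).1 (mem_filter.1 hz).1).2) (mem_filter.1 hz).2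
  rw [← mul_sum, aB] at s2
  rw [smul_eq_mul] at s1 s2
  rw [← sum_filter_add_sum_filter_not D fun z => z * z = 1] at key
  rw [← card_filter_add_card_filter_not (s := D) fun z => z * z = 1] at cD
  have fin : 8 * kc M ≤ 4 * (h a * h a) + 9 * a.factorial := by
    refine Nat.le_of_mul_le_mul_right (c := Nat.card N) ?_ N0
    have t1 := Nat.mul_le_mul_right a.factorial inj
    have t2 := Nat.mul_le_mul_right a.factorial cD
    nlinarith
  refine ((Nat.le_div_iff_mul_le (by norm_num : 0 < 8)).2 ((mul_comm _ _).trans_le fin)).trans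
    ((le_h (by omega)).2 ?_)
  interval_cases a <;> decide

end Cfsg.Lib.K3
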