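import Cfsg.Agent.Lib.K3.Str
import Cfsg.Agent.Lib.K3.Chn
import Cfsg.Agent.Lib.K3.Blk
import Cfsg.Agent.Lib.K3.Two

/-! S4202: the induction. -/

set_option autoImplicit false

namespace Cfsg.Lib.K3

open Equiv Finset Cfsg.Lib.SNL Cfsg.Lib.KC
open scoped Pointwise

variable {α : Type*} [Fintype α] [DecidableEq α] {K M : Subgroup (Perm α)} {R Δ : Finset α} {P : Finset (Finset α)}
  {p : ℕ}

theorem cells_eq (hP : Cells K R P) (hT : Tr K R) (h2 : 2 ≤ #P) (hs : ∀ B ∈ P, 2 ≤ #B) :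
    ∃ a, 2 ≤ a ∧ (∀ B ∈ P, #B = a) ∧ a * #P = #R := by
  obtain ⟨B, hB⟩ := card_pos.1 (show 0 < #P by omega)
  have e : ∀ C ∈ P, #C = #B := fun C hC => by
    obtain ⟨x, hx⟩ := card_pos.1 (show 0 < #B by have := hs B hB; omega)
    obtain ⟨y, hy⟩ := card_pos.1 (show 0 < #C by have := hs C hC; omega)
    obtain ⟨k, hk, e⟩ := hT x (hP.sub B hB hx) y (hP.sub C hC hy)
    rw [← hP.dis _ (hP.inv k hk B hB) C hC y (e ▸ smul_mem_smul_finset hx) hy, card_smul_finset]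
  exact ⟨#B, hs B hB, e, by rw [← hP.sum_card, sum_congr rfl e, sum_const, smul_eq_mul, mul_comm]⟩

theorem cells_ex (hK : K ≤ Fx Rᶜ) (hT : Tr K R) (h2 : 2 ≤ #R) (hp : ¬ Pr K R) :
    ∃ P a, Cells K R P ∧ 2 ≤ #P ∧ 2 ≤ a ∧ (∀ B ∈ P, #B = a) ∧ a * #P = #R ∧
      ∀ B ∈ P, ∀ g ∈ K, g ≠ 1 → (∀ x ∉ B, g x = x) → Tr (K ⊓ Fx Bᶜ) B := by
  obtain ⟨P, hP, p2, hs, -, hJ⟩ := exists_cells hK (fun x hx => by
    obtain ⟨y, hy, n⟩ := exists_mem_ne (show 1 < #R from h2) x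
    obtain ⟨g, a, b⟩ := hT x hx y hy
    exact ⟨g, a, b ▸ n⟩) hp
  obtain ⟨a, a2, ha, e⟩ := cells_eq hP hT p2 hs
  exact ⟨P, a, hP, p2, a2, ha, e, hJ⟩

theorem primB (hp : p = 3 ∨ p = 5 ∨ p = 7) (ih : IH p (Fintype.card α)) (hd : ¬ p ∣ Nat.card M) (hM : Pr M univ)
    (hA : ¬ alternatingGroup α ≤ M) (ht : MT M #Δ) (h1 : 1 ≤ #Δ) (hn : #Δ + 3 ≤ Fintype.card α)
    (hT : Tr (M ⊓ Fx Δ) Δᶜ) (hnp : ¬ Pr (M ⊓ Fx Δ) Δᶜ) : kc M ≤ h (Fintype.card α) := by
  have hR : #Δᶜ = Fintype.card α - #Δ := card_compl _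
  have hle : M ⊓ Fx Δ ≤ Fx Δᶜᶜ := by rw [compl_compl]; exact inf_le_right
  have ht' := ht.succ rfl hT
  obtain ⟨P, a, hP, b2, a2, ha, e, hJ⟩ := cells_ex hle hT (by omega) hnp
  have h4 : 2 * a ≤ a * #P := by nlinarith
  obtain ⟨d, μ, d1, d2, d3, d4, d5⟩ := numB a2 b2
  obtain ⟨B, hB⟩ := card_pos.1 (show 0 < #P by omega)
  obtain ⟨y, hy⟩ := card_pos.1 (show 0 < #B by have := ha B hB; omega)
  have hyΔ := mem_compl.1 (hP.sub B hB hy)
  have hμ : MinD M μ := fun g hg g1 => d4.elim (fun c => c.trans (mind4 hM hA g hg g1)) fun c => by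
    have := blk_mind ht' rfl h1 (hP.sub B hB) (by have := ha B hB; omega)
      (fun c => by have := ha B hB; rw [c] at this; omega) (fun k hk => ?_) hg g1
    · have := ha B hB
      omega
    · refine (em _).imp_right fun n => disjoint_left.2 fun z u v => n (hP.dis _ (hP.inv k hk B hB) B hB z u v)
  have hk := cellB ih (nd_le hd inf_le_left) hP hle (by omega) ha rfl a2 (hP.sub B hB hy)
    (fun C hC g hg hx => by_contra fun g1 => hA (jordan_small hM (by have := ha C hC; omega)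
      (by have := ha C hC; omega) fun x u y v =>
        let ⟨g, a, b⟩ := hJ C hC g hg g1 hx x u y v; ⟨g, ⟨a.1.1, a.2⟩, b⟩))
    (fun g hg => hμ g hg.1) d1 d2 d3
  rw [← fx_insert] at hk
  refine strip3 ht' (card_insert_of_notMem hyΔ) (by omega) (mt_le hp hd ht' (by omega)) (by omega) hμ ?_
  rw [show Fintype.card α + 1 - (#Δ + 1) - μ = a * #P - μ by omega,
    show Fintype.card α - (#Δ + 1) = a * #P - 1 by omega]
  exact le_trans (by gcongr) d5

theorem prim3 (hp : p = 3 ∨ p = 5 ∨ p = 7) (ih : IH p (Fintype.card α)) (hd : ¬ p ∣ Nat.card M) (hM : Pr M univ)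
    (hA : ¬ alternatingGroup α ≤ M) : kc M ≤ h (Fintype.card α) := by
  classical
  obtain ⟨Δ, hΔ, hm⟩ := exists_max_image {Δ : Finset α | Pr (M ⊓ Fx Δ) Δᶜ ∧ MT M #Δ} card
    ⟨∅, mem_filter.2 ⟨mem_univ _, by rwa [fx_empty, compl_empty], fun _ h => absurd h (Nat.not_lt_zero _)⟩⟩
  obtain ⟨-, hq, ht⟩ := mem_filter.1 hΔ
  have ht' := ht.succ rfl hq.1
  have hn : #Δ + 3 < Fintype.card α := lt_of_not_ge fun c => hA (IsMultiplyPretransitive.alternatingGroup_le _ M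
    (by rw [Nat.card_eq_fintype_card]; exact (ht'.mono (by omega)).multi))
  obtain ⟨a, ha⟩ : Δᶜ.Nonempty := card_pos.1 (by rw [card_compl]; omega)
  have hc := card_insert_of_notMem (mem_compl.1 ha)
  have hnp : ¬ Pr (M ⊓ Fx (insert a Δ)) (insert a Δ)ᶜ := fun c => by
    have := hm _ (mem_filter.2 ⟨mem_univ _, c, hc ▸ ht'⟩); omega
  by_cases hT : Tr (M ⊓ Fx (insert a Δ)) (insert a Δ)ᶜ
  · exact primB hp ih hd hM hA (hc ▸ ht') (by omega) (by omega) hT hnp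
  have hR : #(insert a Δ)ᶜ = Fintype.card α - (#Δ + 1) := by rw [card_compl, hc]
  have key := primI (R := (insert a Δ)ᶜ) ih hd hM hA (by omega) (by omega) fun S hS s2 j => hT (by
    have sub := hS.trans (compl_subset_compl.2 (subset_insert a Δ))
    have t := jordan2 (K := M ⊓ Fx Δ) (by rw [compl_compl]; exact inf_le_right) hq sub s2
      (fun e => mem_compl.1 (hS (e ▸ ha)) (mem_insert_self _ _))
      (fun x hx y hy => let ⟨g, a, b⟩ := j x hx y hy
        ⟨g, ⟨⟨a.1, fun z hz => a.2 z (mem_compl.2 fun c => mem_compl.1 (sub c) hz)⟩, a.2⟩, b⟩) ha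
    rwa [← fx_insert, ← compl_insert] at t)
  rw [compl_compl, hR] at key
  refine strip3 ht' hc (by omega) (mt_le hp hd ht' (by omega)) (by omega) (mind4 hM hA) ?_
  rwa [show Fintype.card α + 1 - (#Δ + 1) - 4 = Fintype.card α - (#Δ + 1) - 3 by omega]

theorem impr3 (ih : IH p (Fintype.card α)) (hd : ¬ p ∣ Nat.card M) (h2 : 2 ≤ Fintype.card α) (hT : Tr M univ)
    (hnp : ¬ Pr M univ) : kc M ≤ h (Fintype.card α) := by
  obtain ⟨P, a, hP, b2, a2, ha, e, -⟩ :=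
    cells_ex (fun _ _ _ h => absurd (mem_univ _) (mem_compl.1 h)) hT (by rwa [card_univ]) hnp
  rw [card_univ] at e
  obtain c | ⟨c, a4⟩ | ⟨c1, c2⟩ := numI a2 b2
  · obtain ⟨N, hN, hi, hk⟩ := ih.fam hd (by nlinarith) hP.inv
    obtain ⟨T, -, b, k⟩ := ih.prod (nd_le hd hN) (fun B hB => by rw [ha B hB]; nlinarith) hi
    have hT : T = ⊥ :=
      eq_bot_iff.2 fun g hg => Equiv.ext fun x => let ⟨B, k, k'⟩ := hP.cov x (mem_univ _); b g hg B k x k'
    rw [hT, kc_bot, mul_one, prod_congr rfl fun B hB => congrArg h (ha B hB), prod_const] at k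
    exact e ▸ (hk.trans (Nat.mul_le_mul_left _ k)).trans c
  · rw [← e, c]
    exact two ih hd hP hT ha c a2 a4
  · rw [← e]
    exact (der ih hd hP hT ha rfl a2 b2).elim (le_trans · c1) (le_trans · c2)

theorem ih_all (hp : p = 3 ∨ p = 5 ∨ p = 7) (n : ℕ) : IH p n := by
  induction n with
  | zero => exact fun _ c => absurd c (Nat.not_lt_zero _)
  | succ n ih =>
  intro j hj M hd
  rcases (Nat.lt_succ_iff.1 hj).lt_or_eq with c | rfl
  · exact ih j c M hd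
  by_cases h3 : j ≤ 2
  · refine (kc_le_card M).trans ((Subgroup.card_le_card_group M).trans ?_)
    rw [Nat.card_perm, Nat.card_fin]
    interval_cases j <;> decide
  rw [← Fintype.card_fin j] at ih h3
  have : kc M ≤ h (Fintype.card (Fin j)) := by
    by_cases h1 : Tr M univ
    · by_cases h2 : Pr M univ
      · exact (em _).elim (giant3 hp hd (by omega)) (prim3 hp ih hd h2)
      · exact impr3 ih hd (by omega) h1 h2
    · exact intr3 ih hd h1
  rwa [Fintype.card_fin] at this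

end Cfsg.Lib.K3
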