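import Cfsg.Agent.Lib.K3.Def

/-! S4202: the improved stripping bound, the degree of transitivity, the giants. -/

set_option autoImplicit false

namespace Cfsg.Lib.K3

open Equiv Finset Cfsg.Lib.SNL Cfsg.Lib.KC
open scoped Pointwise

variable {α : Type*} [Fintype α] [DecidableEq α] {M : Subgroup (Perm α)} {Δ : Finset α} {p t μ : ℕ}

/-- `cov_step` with `Δ = {x₀}`, `a = x₁`, `y₀ x₀ = x₁`, `j = t - 2` (and `kc_fx`, as in `KC.strip`): a `y ≠ 1` moves
some `x`, and `MT.exists_map` (`k = 2`) conjugates `(x, y x)` to `(x₀, x₁)`. Insert `1` into the cover. -/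
theorem strip2 (hM : MT M t) (hΔ : #Δ = t) (ht : 2 ≤ t) (hμ : MinD M μ) :
    kc M ≤ 1 + 2 ^ (t - 2) * (μ + kc (M ⊓ Fx Δ) * (Fintype.card α + 1 - t - μ)) := by
  obtain ⟨a, -, b, -, n⟩ := one_lt_card.1 (show 1 < #Δ by omega)
  obtain ⟨T, hT, c⟩ := cov_step (Δ := {a}) (a := b) (y₀ := swap a b) hM (hΔ ▸ card_le_univ Δ) hμ
    (fun Γ hΓ => (kc_fx hM hΓ hΔ).le) (t - 2) (by rw [card_singleton]; omega) (by simpa using n.symm) (by simp)
  refine Cov.kc_le (H := M) le_rfl ⟨insert 1 T, (card_insert_le _ _).trans (by omega), fun y hy => ?_⟩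
  obtain rfl | h1 := eq_or_ne y 1
  · exact ⟨1, one_mem _, by simp⟩
  obtain ⟨x, hx⟩ : ∃ x, y x ≠ x := by
    by_contra! e
    exact h1 (Equiv.ext e)
  obtain ⟨g, hg, e⟩ := (hM.mono ht).exists_map ![x, y x] ![a, b]
    (fun i j => by fin_cases i <;> fin_cases j <;> simp [hx, hx.symm])
    (fun i j => by fin_cases i <;> fin_cases j <;> simp [n, n.symm])
  have e0 : g x = a := e 0
  have e1 : g (y x) = b := e 1
  obtain ⟨k, hk, e'⟩ := c (g * y * g⁻¹) ⟨mul_mem (mul_mem hg hy) (inv_mem hg), fun z hz => by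
    rw [mem_singleton.1 hz, swap_apply_left, Perm.mul_apply, Perm.mul_apply, Perm.inv_eq_iff_eq.2 e0.symm, e1]⟩
  exact ⟨k * g, mul_mem hk.1 hg, mem_insert_of_mem (by convert e' using 1; group)⟩

/-- `KC.strip` + `fin1` for `t = 1`, `strip2` + `fin2` otherwise (`r = card α - t`). -/
theorem strip3 (hM : MT M t) (hΔ : #Δ = t) (h1 : 1 ≤ t) (h6 : t ≤ 6) (h3 : t + 3 ≤ Fintype.card α) (hμ : MinD M μ)
    (hW : 25 * (μ + kc (M ⊓ Fx Δ) * (Fintype.card α + 1 - t - μ)) ^ 2 ≤ 16 * 3 ^ (Fintype.card α - t)) :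
    kc M ≤ h (Fintype.card α) := by
  rcases h1.eq_or_lt with rfl | h2
  · have := (strip hM hΔ le_rfl hμ).trans_eq (by rw [Nat.sub_self, pow_zero, one_mul])
    refine this.trans ((fin1 (by omega) hW).trans_eq ?_)
    rw [Nat.sub_add_cancel (by omega)]
  · refine (strip2 hM hΔ h2 hμ).trans ((fin2 (by omega) h2 h6 hW).trans_eq ?_)
    rw [Nat.sub_add_cancel (by omega)]

/-- `p ∣ 7! ∣ descFactorial n 7 ∣ card M` (`cx_card` seven times, or `MT.multi` and Mathlib's index formula). -/
theorem mt_le (hp : p = 3 ∨ p = 5 ∨ p = 7) (hd : ¬ p ∣ Nat.card M) (hM : MT M t) (ht : t ≤ Fintype.card α) :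
    t ≤ 6 := by
  by_contra! c
  obtain ⟨Δ, -, hΔ⟩ := exists_subset_card_eq (s := (univ : Finset α)) (n := 7) (by rw [card_univ]; omega)
  have hs : (Δ : Set α).ncard = 7 := by rw [Set.ncard_coe_finset, hΔ]
  have h1 := MulAction.IsMultiplyPretransitive.index_of_fixingSubgroup_eq (G := M) (Δ : Set α)
    (by rw [hs]; exact (hM.mono c).multi)
  rw [hs] at h1
  refine hd (Dvd.dvd.trans ?_ (Subgroup.index_dvd_card (fixingSubgroup M (Δ : Set α))))
  rw [h1]
  refine Dvd.dvd.mul_left ?_ _
  rcases hp with rfl | rfl | rfl <;> decide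

/-- The partitions of `n`, with fuel. -/
def strP : ℕ → ℕ → Finset (Multiset ℕ)
  | 0, _ => {0}
  | f + 1, n => if n = 0 then {0} else (range n).biUnion fun k => (strP f (n - (k + 1))).image ((k + 1) ::ₘ ·)

theorem mem_strP (f n : ℕ) (s : Multiset ℕ) (hp : ∀ x ∈ s, 0 < x) (hs : s.sum = n) (hf : n ≤ f) : s ∈ strP f n := by
  have z : n = 0 → s = 0 := fun e => Multiset.eq_zero_of_forall_notMem fun x hx => by
    have := Multiset.le_sum_of_mem hx
    have := hp x hx
    omega
  induction f generalizing n s with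
  | zero => rw [z (by omega)]; exact mem_singleton_self _
  | succ f ih =>
    rw [strP]
    split_ifs with e
    · rw [z e]; exact mem_singleton_self _
    obtain ⟨x, hx⟩ := Multiset.exists_mem_of_ne_zero (s := s) (by rintro rfl; exact e hs.symm)
    obtain ⟨r, rfl⟩ := Multiset.exists_cons_of_mem hx
    have h0 := hp x hx
    rw [Multiset.sum_cons] at hs
    have hr : ∀ y ∈ r, 0 < y := fun y hy => hp y (Multiset.mem_cons_of_mem hy)
    refine mem_biUnion.2 ⟨x - 1, mem_range.2 (by omega), mem_image.2 ⟨r, ih _ r hr (by omega) (by omega)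
      fun e => Multiset.eq_zero_of_forall_notMem fun y hy => ?_, by rw [Nat.sub_add_cancel h0]⟩⟩
    have := Multiset.le_sum_of_mem hy
    have := hr y hy
    omega

theorem str_le (n : ℕ) : Fintype.card (Nat.Partition n) ≤ #(strP n n) :=
  card_le_card_of_injOn Nat.Partition.parts
    (fun q _ => mem_strP n n _ (fun _ hx => q.parts_pos hx) q.parts_sum le_rfl) fun _ _ _ _ => Nat.Partition.ext

theorem str_part : Fintype.card (Nat.Partition 4) ≤ 5 ∧ Fintype.card (Nat.Partition 5) ≤ 7 ∧
    Fintype.card (Nat.Partition 6) ≤ 13 :=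
  ⟨(str_le 4).trans (by decide +kernel), (str_le 5).trans (by decide +kernel), (str_le 6).trans (by decide +kernel)⟩

theorem str_top : kc (⊤ : Subgroup (Perm α)) ≤ Fintype.card (Nat.Partition (Fintype.card α)) := by
  rw [← Nat.card_eq_fintype_card, kc, classes_congr Subgroup.topEquiv]
  exact Nat.card_le_card_of_injective (fun c : ConjClasses (Perm α) => (Quotient.out c).partition) fun c d e =>
    Quotient.out_equiv_out.1 (Perm.partition_eq_of_isConj.2 e)

theorem str_mt : MT (alternatingGroup α) (Fintype.card α - 2) := fun Γ hΓ x hx y hy => by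
  obtain rfl | n := eq_or_ne x y
  · exact ⟨1, one_mem _, rfl⟩
  obtain ⟨z, hz, k⟩ : ∃ z ∈ Γᶜ, z ∉ ({x, y} : Finset α) :=
    exists_mem_notMem_of_card_lt_card (by rw [card_compl, card_pair n]; omega)
  rw [mem_insert, mem_singleton, not_or] at k
  refine ⟨swap x y * swap y z, ⟨by simp [Perm.mem_alternatingGroup, n, Ne.symm k.2], fun w hw => ?_⟩, ?_⟩
  · have j : ∀ v ∈ Γᶜ, w ≠ v := fun v hv e => mem_compl.1 hv (e ▸ hw)
    rw [Perm.mul_apply, swap_apply_of_ne_of_ne (j y hy) (j z hz), swap_apply_of_ne_of_ne (j x hx) (j y hy)]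
  · rw [Perm.mul_apply, swap_apply_of_ne_of_ne n (Ne.symm k.1), swap_apply_left]

theorem str_mind : MinD (alternatingGroup α) 3 := fun g hg h1 => by
  refine (Perm.two_le_card_support_of_ne_one h1).lt_of_ne fun e => ?_
  have := Perm.mem_alternatingGroup.1 hg
  rw [(Perm.card_support_eq_two.1 e.symm).sign_eq] at this
  exact absurd this (by decide)

/-- `n ≤ 6` as `p ∤ n! / 2`. `M = ⊤`: partitions, as in `KC.kc_top` (`p(3..6) = 3, 5, 7, 11`; try
`decide +kernel` on `Fintype.card (Nat.Partition 6)`). `M = Aₙ`: `n = 3` by `kc_le_card`; else `strip2` with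
`t = n - 2`, `μ = 3` (copy the two side goals from `KC.giant`) gives `1 + 3 · 2^(n-4) = 4, 7, 13`. -/
theorem giant3 (hp : p = 3 ∨ p = 5 ∨ p = 7) (hd : ¬ p ∣ Nat.card M) (h3 : 3 ≤ Fintype.card α)
    (hA : alternatingGroup α ≤ M) : kc M ≤ h (Fintype.card α) := by
  have := Fintype.one_lt_card_iff_nontrivial.1 (show 1 < Fintype.card α by omega)
  have h2 := two_mul_nat_card_alternatingGroup (α := α)
  rw [Nat.card_perm, Nat.card_eq_fintype_card (α := α)] at h2
  have h6 : Fintype.card α ≤ 6 := by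
    by_contra! c
    refine nd_le hd hA ((Nat.Coprime.dvd_mul_left (m := 2) ?_).1 ?_)
    · rcases hp with rfl | rfl | rfl <;> decide
    · rw [h2]
      exact Nat.dvd_factorial (by omega) (by omega)
  rcases (Nat.dvd_prime Nat.prime_two).1 (alternatingGroup.index_eq_two (α := α) ▸ Subgroup.index_dvd_of_le hA)
    with e | e
  · rw [Subgroup.index_eq_one.1 e]
    have h4 := kc_top h3
    have h5 := str_top (α := α)
    obtain ⟨a, b, c⟩ := str_part
    generalize Fintype.card α = n at *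
    interval_cases n
    · exact h4
    · exact h5.trans a
    · exact h5.trans (b.trans (by decide +kernel))
    · exact h5.trans (c.trans (by decide +kernel))
  obtain rfl := Perm.eq_alternatingGroup_of_index_eq_two e
  rcases h3.eq_or_lt with e3 | h4
  · rw [← e3] at h2 ⊢
    refine (kc_le_card _).trans ?_
    have : h 3 = 3 := by decide
    rw [this]
    simp only [Nat.factorial] at h2
    omega
  obtain ⟨Δ, -, hΔ⟩ := exists_subset_card_eq (s := (univ : Finset α)) (n := Fintype.card α - 2) (by simp)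
  have := strip2 str_mt hΔ (by omega) str_mind
  rw [show Fintype.card α + 1 - (Fintype.card α - 2) - 3 = 0 by omega, mul_zero, add_zero] at this
  refine this.trans ?_
  generalize Fintype.card α = n at *
  interval_cases n <;> decide +kernel

end Cfsg.Lib.K3
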